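import Mathlib
import Cfsg.Agent.Lib.GL.Unitri

/-!
# Two-subgroups of `GL₄` in characteristic two without transvections
-/

set_option autoImplicit false
set_option linter.unusedSectionVars false

namespace H98.G4.Ls

open Matrix Subgroup
open scoped commutatorElement

variable {F : Type*} [Field F] [CharP F 2] {X : Type*} [Group X] {ρ : X →* GL (Fin 4) F} {x y z : X}

/-- faithful representations without transvections -/
structure N4 (ρ : X →* GL (Fin 4) F) : Prop where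
  inj : Function.Injective ρ
  nt : ∀ x a φ, φ ⬝ᵥ a = 0 → (ρ x).val = 1 + vecMulVec a φ → x = 1

theorem N4.cmp {Y : Type*} [Group Y] (h : N4 ρ) {f : Y →* X} (hf : Function.Injective f) : N4 (ρ.comp f) :=
  ⟨h.inj.comp hf, fun _ a φ h0 e => hf ((h.nt _ a φ h0 e).trans (map_one f).symm)⟩

theorem N4.cj (h : N4 ρ) (B : GL (Fin 4) F) : N4 ((MulAut.conj B⁻¹).toMonoidHom.comp ρ) where
  inj := (MulAut.conj B⁻¹).injective.comp h.inj
  nt x a φ h0 e := h.nt x (B.val *ᵥ a) (φ ᵥ* (B⁻¹).val)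
    (by rwa [dotProduct_mulVec, vecMul_vecMul, Units.inv_mul, vecMul_one]) (by
      have : ρ x = B * ((MulAut.conj B⁻¹).toMonoidHom.comp ρ x) * B⁻¹ := by simp [mul_assoc]
      rw [this, Units.val_mul, Units.val_mul, e, mul_add, mul_one, add_mul, Units.mul_inv, mul_vecMulVec,
        vecMulVec_mul])

/-- unitriangular matrices -/
def U (a b c d e f : F) : Matrix (Fin 4) (Fin 4) F := !![1, a, d, f; 0, 1, b, e; 0, 0, 1, c; 0, 0, 0, 1]

theorem U_mul (a b c d e f a' b' c' d' e' f' : F) : U a b c d e f * U a' b' c' d' e' f' =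
    U (a + a') (b + b') (c + c') (d + d' + a * b') (e + e' + b * c') (f + f' + a * e' + d * c') := by
  ext i j
  fin_cases i <;> fin_cases j <;> simp [U, mul_apply, Fin.sum_univ_four] <;> ring

theorem U_inj {a b c d e f a' b' c' d' e' f' : F} : U a b c d e f = U a' b' c' d' e' f' ↔
    a = a' ∧ b = b' ∧ c = c' ∧ d = d' ∧ e = e' ∧ f = f' :=
  ⟨fun h => ⟨congrFun (congrFun h 0) 1, congrFun (congrFun h 1) 2, congrFun (congrFun h 2) 3,
    congrFun (congrFun h 0) 2, congrFun (congrFun h 1) 3, congrFun (congrFun h 0) 3⟩,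
    by rintro ⟨rfl, rfl, rfl, rfl, rfl, rfl⟩; rfl⟩

theorem U_sq (a b c d e f : F) : U a b c d e f * U a b c d e f = U 0 0 0 (a * b) (b * c) (a * e + d * c) := by
  rw [U_mul, U_inj]; grind

theorem N4.eq_one (h : N4 ρ) {p r t : F} (e : (ρ x).val = U 0 0 0 p r t) (h0 : p = 0 ∨ r = 0) : x = 1 := by
  rcases h0 with rfl | rfl
  · refine h.nt x ![t, r, 0, 0] ![0, 0, 0, 1] (by simp [dotProduct, Fin.sum_univ_four]) (e.trans ?_)
    ext i j
    fin_cases i <;> fin_cases j <;> simp [U, vecMulVec_apply]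
  · refine h.nt x ![1, 0, 0, 0] ![0, 0, p, t] (by simp [dotProduct, Fin.sum_univ_four]) (e.trans ?_)
    ext i j
    fin_cases i <;> fin_cases j <;> simp [U, vecMulVec_apply]

theorem N4.exists_U [Finite F] (h : N4 ρ) {S : Subgroup X} (hS : IsPGroup 2 S) :
    ∃ σ : X →* GL (Fin 4) F, N4 σ ∧ ∀ x ∈ S, ∃ a b c d e f, (σ x).val = U a b c d e f := by
  obtain ⟨Q, hQ⟩ := (hS.map ρ).exists_le_sylow
  obtain ⟨B, rfl⟩ := MulAction.exists_smul_eq (GL (Fin 4) F) (H10.unitriSylowGL (Fin 4) F 2) Q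
  refine ⟨_, h.cj B, fun x hx => ?_⟩
  obtain ⟨g, hg, e⟩ := hQ ⟨x, hx, rfl⟩
  have e' : (MulAut.conj B⁻¹).toMonoidHom.comp ρ x = g := by
    have : ρ x = B * g * B⁻¹ := e.symm
    simp [this, mul_assoc]
  obtain ⟨h1, h2⟩ := H10.mem_unitriGL.1 hg
  refine ⟨g.val 0 1, g.val 1 2, g.val 2 3, g.val 0 2, g.val 1 3, g.val 0 3, ?_⟩
  rw [e']
  ext i j
  fin_cases i <;> fin_cases j <;> simp [U, h2] <;> exact h1 _ _ (by decide)

section two
variable [Finite F] (h : N4 ρ) {S : Subgroup X} (hS : IsPGroup 2 S)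
include h hS

theorem N4.comm_sq (hx : x ∈ S) (hy : y ∈ S) : Commute (x * x) y := by
  obtain ⟨σ, h, H⟩ := h.exists_U hS
  obtain ⟨a, b, c, d, e, f, e1⟩ := H x hx
  obtain ⟨a', b', c', d', e', f', e2⟩ := H y hy
  obtain ⟨p, q, r, s, t, u, e3⟩ := H ((y * (x * x))⁻¹ * (x * x * y))
    (mul_mem (inv_mem (mul_mem hy (mul_mem hx hx))) (mul_mem (mul_mem hx hx) hy))
  have k := congrArg (fun g => (σ g).val) (mul_inv_cancel_left (y * (x * x)) (x * x * y))
  rw [map_mul, Units.val_mul, e3] at k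
  simp only [map_mul, Units.val_mul, e1, e2, U_sq, U_mul, U_inj] at k
  obtain rfl : p = 0 := by grind
  obtain rfl : q = 0 := by grind
  obtain rfl : r = 0 := by grind
  exact (inv_mul_eq_one.1 (h.eq_one e3 (.inl (by grind)))).symm

theorem N4.comm_comm (hx : x ∈ S) (hy : y ∈ S) (hz : z ∈ S) : Commute ⁅x, y⁆ z := by
  have : ⁅x, y⁆ = x * x * ((x⁻¹ * y) * (x⁻¹ * y)) * (y⁻¹ * y⁻¹) := by group
  rw [this]
  exact ((h.comm_sq hS hx hz).mul_left (h.comm_sq hS (mul_mem (inv_mem hx) hy) hz)).mul_left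
    (h.comm_sq hS (inv_mem hy) hz)

theorem N4.sq_key {x' y' : X} (hx : x ∈ S) (hy : y ∈ S) (hx' : x' ∈ S) (hy' : y' ∈ S) (s1 : x * x = x' * x')
    (s2 : y * y = y' * y') (c1 : Commute x y) (c2 : Commute x' y') (c3 : Commute (x * x') (y * y'))
    (n1 : x * x ≠ 1) (n2 : x * x' * (x * x') ≠ 1) : y * y = 1 ∨ y * y = x * x := by
  obtain ⟨σ, h, H⟩ := h.exists_U hS
  obtain ⟨a, b, c, d, e, f, e1⟩ := H x hx
  obtain ⟨A, B, C, D, E, G, e2⟩ := H y hy
  obtain ⟨a', b', c', d', e', f', e3⟩ := H x' hx'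
  obtain ⟨A', B', C', D', E', G', e4⟩ := H y' hy'
  have m1 := mt (h.eq_one (x := x * x) (by rw [map_mul, Units.val_mul, e1, U_sq])) n1
  have m2 := mt (h.eq_one (x := x * x' * (x * x'))
    (by rw [map_mul, Units.val_mul, map_mul, Units.val_mul, e1, e3, U_mul a, U_sq])) n2
  have v : ∀ {u w : X}, u = w → (σ u).val = (σ w).val := fun k => by rw [k]
  have k1 := v s1
  have k2 := v s2
  have k3 := v c1.eq
  have k4 := v c2.eq
  have k5 := v c3.eq
  simp only [map_mul, Units.val_mul, e1, e2, e3, e4, U_sq, U_mul, U_inj] at k1 k2 k3 k4 k5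
  simp only [mul_eq_zero, not_or] at m1 m2
  obtain ⟨⟨a0, b0⟩, -, c0⟩ := m1
  obtain ⟨⟨a1, b1⟩, -⟩ := m2
  obtain ⟨-, -, -, p1, p2, -⟩ := k1
  obtain ⟨-, -, -, p3, -, -⟩ := k2
  obtain ⟨-, -, -, p4, p5, p6⟩ := k3
  obtain ⟨-, -, -, p7, p8, p9⟩ := k4
  obtain ⟨-, -, -, -, -, p10⟩ := k5
  have a0' : a' ≠ 0 := by rintro rfl; grind
  have b0' : b' ≠ 0 := by rintro rfl; grind
  obtain ⟨α, rfl⟩ : ∃ α, A = α * a := ⟨A / a, by field_simp⟩
  obtain ⟨β, rfl⟩ : ∃ β, A' = β * a' := ⟨A' / a', by field_simp⟩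
  obtain ⟨l, rfl⟩ : ∃ l, c = l * a := ⟨c / a, by field_simp⟩
  obtain rfl : B = α * b := mul_left_cancel₀ a0 (by linear_combination p4)
  obtain rfl : C = α * (l * a) := mul_left_cancel₀ b0 (by linear_combination p5)
  obtain rfl : B' = β * b' := mul_left_cancel₀ a0' (by linear_combination p7)
  obtain rfl : c' = l * a' := mul_left_cancel₀ b0' (by linear_combination l * p1 - p2)
  obtain rfl : C' = β * (l * a') := mul_left_cancel₀ b0' (by linear_combination p8)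
  have h2 : (2 : F) = 0 := CharTwo.two_eq_zero
  obtain rfl : β = α := by
    have : (β + α) ^ 2 = 0 := mul_left_cancel₀ (mul_ne_zero a0 b0) (by grind)
    grind
  obtain rfl : E = β * e + l * (D + β * d) := mul_left_cancel₀ a0 (by grind)
  obtain rfl : E' = β * e' + l * (D' + β * d') := mul_left_cancel₀ a0' (by grind)
  have l0 : l ≠ 0 := by rintro rfl; simp at c0
  have key : β * (β + 1) = 0 := mul_left_cancel₀ (mul_ne_zero (mul_ne_zero a1 l0) (mul_ne_zero a1 b1)) (by grind)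
  refine (mul_eq_zero.1 key).imp (fun k => h.eq_one (by rw [map_mul, Units.val_mul, e2, U_sq]) (.inl (by simp [k])))
    fun k => h.inj (Units.ext ?_)
  simp only [map_mul, Units.val_mul, e1, e2, U_sq, U_inj]
  grind

end two

end H98.G4.Ls
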