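import Mathlib
import Cfsg.Agent.Lib.G4.ListA

/-!
# A subgroup of odd order with two double cosets has no fixed vector
-/

set_option autoImplicit false
set_option linter.unusedSectionVars false

namespace H98.G4.Ls

open Matrix Subgroup

variable {F : Type*} [Field F] [CharP F 2] {X : Type*} [Group X] {ρ : X →* GL (Fin 4) F} {x y z : X}

/-- absolute irreducibility -/
def Ir (ρ : X →* GL (Fin 4) F) : Prop := ∀ a φ, (∀ x, φ ⬝ᵥ ((ρ x).val *ᵥ a) = 0) → a = 0 ∨ φ = 0

theorem zero_of_perp {a : Fin 4 → F} (h : ∀ φ, φ ⬝ᵥ a = 0 → a = 0 ∨ φ = 0) : a = 0 := by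
  have h2 : (2 : F) = 0 := CharTwo.two_eq_zero
  rcases h ![a 1, a 0, 0, 0] (by simp [dotProduct, Fin.sum_univ_four]; grind) with e | e1
  · exact e
  rcases h ![0, 0, a 3, a 2] (by simp [dotProduct, Fin.sum_univ_four]; grind) with e | e2
  · exact e
  ext i
  fin_cases i
  exacts [congrFun e1 1, congrFun e1 0, congrFun e2 3, congrFun e2 2]

theorem Ir.left (h : Ir ρ) {Z : Matrix (Fin 4) (Fin 4) F} (hZ : ∀ x, (ρ x).val * Z = Z) : Z = 0 :=
  ext_of_mulVec_single fun i => (zero_of_perp fun φ h0 => h _ φ fun x => by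
    rwa [mulVec_mulVec, hZ]).trans (zero_mulVec _).symm

theorem Ir.right (h : Ir ρ) {Z : Matrix (Fin 4) (Fin 4) F} (hZ : ∀ x, Z * (ρ x).val = Z) : Z = 0 :=
  ext_of_single_vecMul fun i => (zero_of_perp fun a h0 => (h a _ fun x => by
    rwa [dotProduct_mulVec, vecMul_vecMul, hZ, dotProduct_comm]).symm).trans (vecMul_zero _).symm

theorem odd_smul {n : ℕ} (h : Odd n) (M : Matrix (Fin 4) (Fin 4) F) : n • M = M := by
  obtain ⟨k, rfl⟩ := h
  rw [← Nat.cast_smul_eq_nsmul F]
  simp [CharTwo.two_eq_zero]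

theorem Ir.sum_eq_zero [Fintype X] (h : Ir ρ) (B : Subgroup X) [DecidablePred (· ∈ B)] {w : X}
    (hw : ∀ x, x ∈ B ∨ ∃ b ∈ B, ∃ c ∈ B, x = b * w * c) (ho : Odd (Nat.card B)) (he : Even (Nat.card X)) :
    ∑ b with b ∈ B, (ρ b).val = 0 := by
  obtain ⟨E, hE⟩ : ∃ E, E = ∑ b with b ∈ B, (ρ b).val := ⟨_, rfl⟩
  rw [← hE]
  have hc : (Finset.univ.filter (· ∈ B)).card = Nat.card B := by
    rw [Nat.card_eq_fintype_card, Fintype.card_subtype]
  have r : ∀ b ∈ B, E * (ρ b).val = E := fun b hb => by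
    rw [hE, Finset.sum_mul]
    exact Finset.sum_equiv (Equiv.mulRight b) (by simp [B.mul_mem_cancel_right hb]) (by simp)
  have l : ∀ b ∈ B, (ρ b).val * E = E := fun b hb => by
    rw [hE, Finset.mul_sum]
    exact Finset.sum_equiv (Equiv.mulLeft b) (by simp [B.mul_mem_cancel_left hb]) (by simp)
  have ee : E * E = E := by
    conv_lhs => rw [hE, Finset.mul_sum, ← hE]
    rw [Finset.sum_congr rfl fun b hb => r b (Finset.mem_filter.1 hb).2, Finset.sum_const, hc, odd_smul ho]
  have z0 : ∑ x, (ρ x).val = 0 := h.left fun y => by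
    rw [Finset.mul_sum]
    exact Fintype.sum_equiv (Equiv.mulLeft y) _ _ (by simp)
  have k : ∀ x, x ∉ B → E * (ρ x).val * E = E * (ρ w).val * E := fun x hx => by
    obtain ⟨b, hb, c, hc, rfl⟩ := (hw x).resolve_left hx
    simp only [map_mul, Units.val_mul, ← mul_assoc, r b hb]
    rw [mul_assoc _ _ E, l c hc]
  have hW : E * (ρ w).val * E = E := by
    have := congrArg (E * · * E) z0
    have h1 := Finset.card_filter_add_card_filter_not (s := Finset.univ) (· ∈ B)
    rw [hc, Finset.card_univ, ← Nat.card_eq_fintype_card] at h1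
    simp only [mul_zero, zero_mul] at this
    rw [← Finset.sum_filter_add_sum_filter_not _ (· ∈ B), ← hE, mul_add, add_mul, ee, ee, Finset.mul_sum,
      Finset.sum_mul, Finset.sum_congr rfl fun b hb => k b (Finset.mem_filter.1 hb).2, Finset.sum_const,
      odd_smul (by grind)] at this
    rw [← neg_eq_of_add_eq_zero_right this]
    ext i j
    exact CharTwo.neg_eq _
  have k' : ∀ x, E * (ρ x).val * E = E := fun x => by
    by_cases hx : x ∈ B
    · rw [r x hx, ee]
    · rw [k x hx, hW]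
  by_contra h0
  obtain ⟨j, hj⟩ : ∃ j, E *ᵥ Pi.single j 1 ≠ 0 := not_forall.1 fun e =>
    h0 (ext_of_mulVec_single fun i => (e i).trans (zero_mulVec _).symm)
  refine h0 (h.right fun y => sub_eq_zero.1 (ext_of_single_vecMul fun i => ?_))
  refine ((h _ _ fun x => ?_).resolve_left hj).trans (vecMul_zero _).symm
  rw [mulVec_mulVec, dotProduct_mulVec, vecMul_vecMul, sub_mul, mul_assoc, ← mul_assoc (ρ y).val, ← Units.val_mul,
    ← map_mul, ← mul_assoc, ← mul_assoc, k', k', sub_self, vecMul_zero, zero_dotProduct]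

end H98.G4.Ls
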