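import Mathlib


/-!
# Finite Jordan division algebras of two by two matrices are commutative
-/

set_option autoImplicit false
set_option linter.style.haveILetI false

namespace H98.G4.Qd

open Matrix Polynomial

abbrev Mt (F : Type*) := Matrix (Fin 2) (Fin 2) F

variable {F : Type*} [Field F]

theorem ch (A : Mt F) : A * A = A.trace • A - A.det • 1 := by
  ext i j; fin_cases i <;> fin_cases j <;>
    simp [Matrix.mul_apply, Fin.sum_univ_two, trace_fin_two, det_fin_two] <;> ring

theorem ch2 (A B : Mt F) :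
    A * B + B * A = A.trace • B + B.trace • A + ((A * B).trace - A.trace * B.trace) • 1 := by
  ext i j; fin_cases i <;> fin_cases j <;>
    simp [Matrix.mul_apply, Fin.sum_univ_two, trace_fin_two] <;> ring

theorem ad3 (A B : Mt F) : A * (A * A * B + B * (A * A) - A * B * A - A * B * A) -
    (A * A * B + B * (A * A) - A * B * A - A * B * A) * A = (A.trace ^ 2 - 4 * A.det) • (A * B - B * A) := by
  ext i j; fin_cases i <;> fin_cases j <;>
    simp [Matrix.mul_apply, Fin.sum_univ_two, trace_fin_two, det_fin_two] <;> ring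

theorem tr_ad (A B : Mt F) : (A * A * B + B * (A * A) - A * B * A - A * B * A).trace = 0 ∧
    (A * (A * A * B + B * (A * A) - A * B * A - A * B * A)).trace = 0 := by
  constructor <;> simp [Matrix.mul_apply, Fin.sum_univ_two, trace_fin_two] <;> ring

theorem det3 (A B : Mt F) (x z : F) : (x • 1 + A + z • B).det = x ^ 2 + x * A.trace + A.det +
    z * (x * B.trace + A.trace * B.trace - (A * B).trace) + z ^ 2 * B.det := by
  simp [Matrix.mul_apply, Fin.sum_univ_two, trace_fin_two, det_fin_two]; ring

theorem add_pow_sq {n : Mt F} (h : n * n = 0) (e : F) (m : ℕ) :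
    (e • 1 + n) ^ (m + 1) = e ^ (m + 1) • 1 + (((m + 1 : ℕ) : F) * e ^ m) • n := by
  induction m with
  | zero => simp
  | succ m ih =>
    rw [pow_succ, ih]
    simp only [mul_add, add_mul, smul_mul_assoc, mul_smul_comm, h, one_mul, mul_one, smul_zero]
    push_cast
    module

theorem exists_sqrt [Fintype F] (h : (2 : F) = 0) : ∃ m : ℕ, ∀ c : F, c ^ m * c ^ m = c := by
  haveI : CharP F 2 := CharTwo.of_one_ne_zero_of_two_eq_zero one_ne_zero h
  obtain ⟨n, -, hn⟩ := FiniteField.card F 2
  refine ⟨2 ^ ((n : ℕ) - 1), fun c => ?_⟩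
  rw [← pow_add, ← two_mul, ← pow_succ', Nat.sub_add_cancel (show 1 ≤ (n : ℕ) from n.2), ← hn, FiniteField.pow_card]

theorem exists_half [Finite F] (h : (2 : F) ≠ 0) : ∃ m : ℕ, (m : F) * 2 = 1 := by
  obtain ⟨p, hp⟩ := CharP.exists F
  obtain ⟨m, hm⟩ := (CharP.char_is_prime F p).odd_of_ne_two (by rintro rfl; exact h (CharP.cast_eq_zero F 2))
  refine ⟨m + 1, ?_⟩
  have := CharP.cast_eq_zero F p
  rw [hm] at this
  push_cast at this ⊢
  linear_combination this

section

variable [Finite F] {J : AddSubgroup (Mt F)} (h1 : 1 ∈ J) (hU : ∀ A ∈ J, ∀ B ∈ J, A * B * A ∈ J)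
include h1 hU

omit [Finite F] in
theorem pow_mem' {A : Mt F} (hA : A ∈ J) (n : ℕ) : A ^ n ∈ J := by
  induction n using Nat.twoStepInduction with
  | zero => simpa using h1
  | one => simpa using hA
  | more n ih _ => rw [pow_succ, pow_succ']; exact hU _ hA _ ih

omit [Finite F] h1 in
theorem lin {A B C : Mt F} (hA : A ∈ J) (hB : B ∈ J) (hC : C ∈ J) : A * B * C + C * B * A ∈ J := by
  have := sub_mem (sub_mem (hU _ (add_mem hA hC) _ hB) (hU _ hA _ hB)) (hU _ hC _ hB)
  convert this using 1
  noncomm_ring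

omit [Finite F] in
theorem spow {c : F} (hc : c • (1 : Mt F) ∈ J) (n : ℕ) : c ^ n • (1 : Mt F) ∈ J := by
  simpa [_root_.smul_pow] using pow_mem' h1 hU hc n

theorem smul_mem' {c : F} (hc : c • (1 : Mt F) ∈ J) {B : Mt F} (hB : B ∈ J) : c • B ∈ J := by
  haveI := Fintype.ofFinite F
  by_cases h : (2 : F) = 0
  · obtain ⟨m, hm⟩ := exists_sqrt h
    simpa [smul_smul, hm] using hU _ (spow h1 hU hc m) _ hB
  · obtain ⟨m, hm⟩ := exists_half h
    have := nsmul_mem (lin hU hc hB h1) m
    convert this using 1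
    simp only [smul_mul_assoc, mul_smul_comm, one_mul, mul_one]
    rw [← Nat.cast_smul_eq_nsmul F, ← add_smul, smul_smul]
    congr 1
    linear_combination (-c) * hm

theorem inv_mem' {c : F} (hc : c • (1 : Mt F) ∈ J) : c⁻¹ • (1 : Mt F) ∈ J := by
  haveI := Fintype.ofFinite F
  by_cases h : c = 0
  · simp [h]
  have h2 := Fintype.one_lt_card (α := F)
  rw [show c⁻¹ = c ^ (Fintype.card F - 2) by
    refine inv_eq_of_mul_eq_one_right ?_
    rw [← pow_succ', ← FiniteField.pow_card_sub_one_eq_one c h]; congr 1; omega]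
  exact spow h1 hU hc _

theorem jcomm (hu : ∀ A ∈ J, A.det = 0 → A = 0) {A B : Mt F} (hA : A ∈ J) (hB : B ∈ J) :
    A * B = B * A := by
  haveI := Fintype.ofFinite F
  by_contra hAB
  have hs : ∀ e : F, A ≠ e • 1 := by rintro e rfl; simp at hAB
  have hD : A.trace ^ 2 - 4 * A.det ≠ 0 := fun hD => by
    obtain ⟨e, e1, e2⟩ : ∃ e : F, 2 * e = A.trace ∧ e * e = A.det := by
      by_cases h : (2 : F) = 0
      · obtain ⟨m, hm⟩ := exists_sqrt h
        refine ⟨_, ?_, hm _⟩
        rw [h, zero_mul, eq_comm]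
        exact pow_eq_zero_iff two_ne_zero |>.1 (by linear_combination hD + 2 * A.det * h)
      · refine ⟨A.trace / 2, by field_simp, ?_⟩
        field_simp
        linear_combination hD
    have h2 : (A - e • 1) * (A - e • 1) = 0 := by
      simp only [mul_sub, sub_mul, smul_mul_assoc, mul_smul_comm, one_mul, mul_one, ch A, ← e1, ← e2]
      module
    have h3 := add_pow_sq h2 e (Fintype.card F - 1)
    rw [add_sub_cancel, Nat.sub_add_cancel Fintype.card_pos, FiniteField.pow_card,
      FiniteField.cast_card_eq_zero, zero_mul, zero_smul, add_zero] at h3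
    refine hs e (sub_eq_zero.1 (hu _ (sub_mem hA (h3 ▸ pow_mem' h1 hU hA _)) ?_))
    exact mul_self_eq_zero.1 (by rw [← det_mul, h2, det_zero])
  have hAA : A * A ∈ J := by simpa using hU _ hA _ h1
  obtain ⟨t1, t2⟩ := tr_ad A B
  have h2 := ad3 A B
  have h3 : A * A * B + B * (A * A) - A * B * A - A * B * A ∈ J :=
    sub_mem (sub_mem (by simpa using lin hU hAA hB h1) (hU _ hA _ hB)) (hU _ hA _ hB)
  generalize A * A * B + B * (A * A) - A * B * A - A * B * A = C at *
  have h4 : C.det ≠ 0 := fun e => by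
    rw [hu C h3 e, mul_zero, zero_mul, sub_zero, eq_comm, smul_eq_zero] at h2
    exact h2.elim hD fun e => hAB (sub_eq_zero.1 e)
  have h5 := ch C
  have h6 := ch2 A C
  simp only [t1, t2, zero_smul, zero_sub, mul_zero, sub_zero, add_zero] at h5 h6
  have b1 : C.det • (1 : Mt F) ∈ J := by simpa [h5] using hU _ h3 _ h1
  by_cases h : (2 : F) = 0
  · obtain ⟨m, hm⟩ := exists_sqrt h
    have h7 := hu _ (add_mem (spow h1 hU b1 m) h3) (by
      have := det3 0 C (C.det ^ m) 1
      simp only [add_zero, one_smul] at this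
      rw [this, t1, pow_two, hm]
      simp
      linear_combination C.det * h)
    rw [eq_neg_of_add_eq_zero_right h7] at t2 h4
    simp only [mul_neg, mul_smul_comm, mul_one, trace_neg, trace_smul, smul_eq_mul, neg_eq_zero,
      mul_eq_zero] at t2
    rcases t2 with t2 | t2
    · rw [t2] at h4; simp at h4
    · exact hD (by rw [t2]; linear_combination (-2 * A.det) * h)
  have b2 : A.trace • (1 : Mt F) ∈ J := by
    have e1 : C * A * C = C.det • (A - A.trace • 1) := by
      rw [eq_sub_of_add_eq' h6, sub_mul, smul_mul_assoc, mul_assoc, h5]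
      simp only [mul_neg, mul_smul_comm, mul_one]
      module
    have e2 := smul_mem' h1 hU (inv_mem' h1 hU b1) (e1 ▸ hU _ h3 _ hA)
    rw [inv_smul_smul₀ h4] at e2
    simpa using sub_mem hA e2
  have b3 : A.det • (1 : Mt F) ∈ J := by
    have := sub_mem (smul_mem' h1 hU b2 hA) hAA
    rwa [ch A, sub_sub_cancel] at this
  let k : Subring F :=
    { carrier := {c | c • (1 : Mt F) ∈ J}
      mul_mem' := fun ha hb => by simpa [mul_smul] using smul_mem' h1 hU ha hb
      one_mem' := by simpa using h1
      add_mem' := fun ha hb => by simpa [add_smul] using add_mem ha hb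
      zero_mem' := by simp
      neg_mem' := fun ha => by simpa using ha }
  haveI := Fintype.ofFinite k
  obtain ⟨x, z, e⟩ := FiniteField.exists_root_sum_quadratic (R := k)
    (f := Polynomial.C 1 * X ^ 2 + Polynomial.C ⟨_, b2⟩ * X + Polynomial.C ⟨_, b3⟩)
    (g := Polynomial.C ⟨_, b1⟩ * X ^ 2 + Polynomial.C 0 * X + Polynomial.C 0)
    (degree_quadratic one_ne_zero) (degree_quadratic fun e => h4 (congrArg Subtype.val e)) (by
      have e1 := FiniteField.odd_card_of_char_ne_two (F := F) fun e => h (by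
        have := ringChar.Nat.cast_ringChar (R := F); rwa [e] at this)
      have e2 := AddSubgroup.card_addSubgroup_dvd_card k.toAddSubgroup
      rw [Nat.card_eq_fintype_card (α := F)] at e2
      rw [← Nat.card_eq_fintype_card]
      exact Nat.odd_iff.1 ((Nat.odd_iff.2 e1).of_dvd_nat e2))
  have e1 := congrArg Subtype.val e
  simp at e1
  have e2 := hu _ (add_mem (add_mem x.2 hA) (smul_mem' h1 hU z.2 h3)) (by
    rw [det3, t1, t2]; linear_combination e1)
  have e3 := congrArg (fun Y => (Y * C).trace) e2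
  simp only [add_mul, smul_mul_assoc, one_mul, trace_add, trace_smul, t1, t2, h5, trace_neg,
    trace_one, zero_mul, trace_zero] at e3
  simp [h, h4] at e3
  refine hs (-x) ?_
  rw [e3] at e2
  simpa using eq_neg_of_add_eq_zero_right (by simpa using e2)

end

end H98.G4.Qd
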