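import Mathlib
import Cfsg.Agent.Lib.Sp4R.Dk

/-!
# Subgroups of `SL₂` over a quadratic algebra without transvections
-/

set_option autoImplicit false
set_option linter.unusedSimpArgs false

namespace H98.G4.QR

open Matrix MatrixGroups H29 H98.D3 QuadraticAlgebra

section ring

variable {R F : Type*} [CommRing R] [Field F]

/-- upper unipotent element -/
def U (a : R) : SL(2, R) := mkSL 1 a 0 1 (by ring)

/-- lower unipotent element -/
def L (a : R) : SL(2, R) := mkSL 1 0 a 1 (by ring)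

/-- diagonal element -/
def D (a : F) (h : a ≠ 0) : SL(2, F) := mkSL a 0 0 a⁻¹ (by simp [h])

/-- reduction -/
abbrev mp (ρ : R →+* F) : SL(2, R) →* SL(2, F) := SpecialLinearGroup.map ρ

/-- the kernel of the reduction is scalar -/
def KS (ρ : R →+* F) (H : Subgroup SL(2, R)) : Prop :=
  ∀ g ∈ H, mp ρ g = 1 → g.1 0 1 = 0 ∧ g.1 1 0 = 0 ∧ g.1 0 0 = g.1 1 1

theorem force_eq : True := by
  have := @U.eq_1.{0}
  have := @L.eq_1.{0}
  have := @D.eq_1.{0}
  have := @KS.eq_1.{0, 0}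
  trivial

theorem sl_eq {g h : SL(2, R)} : g = h ↔ g.1 0 0 = h.1 0 0 ∧ g.1 0 1 = h.1 0 1 ∧
    g.1 1 0 = h.1 1 0 ∧ g.1 1 1 = h.1 1 1 := by
  refine ⟨fun e => by simp [e], fun e => Subtype.ext ?_⟩
  ext i j
  fin_cases i <;> fin_cases j <;> simp [e]

theorem mul_e (g h : SL(2, R)) (i j : Fin 2) :
    (g * h).1 i j = g.1 i 0 * h.1 0 j + g.1 i 1 * h.1 1 j := by
  simp [Matrix.mul_apply, Fin.sum_univ_two]

theorem mp_e (ρ : R →+* F) (g : SL(2, R)) (i j : Fin 2) : (mp ρ g).1 i j = ρ (g.1 i j) := rfl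

theorem one_e : (1 : SL(2, R)).1 0 0 = 1 ∧ (1 : SL(2, R)).1 0 1 = 0 ∧ (1 : SL(2, R)).1 1 0 = 0 ∧
    (1 : SL(2, R)).1 1 1 = 1 := ⟨rfl, rfl, rfl, rfl⟩

theorem mk_e (a b c d : R) (h) : (mkSL a b c d h).1 0 0 = a ∧ (mkSL a b c d h).1 0 1 = b ∧
    (mkSL a b c d h).1 1 0 = c ∧ (mkSL a b c d h).1 1 1 = d := ⟨rfl, rfl, rfl, rfl⟩

theorem mp_U (ρ : R →+* F) (a : R) : mp ρ (U a) = up (ρ a) := by simp only [sl_eq, mul_e, mp_e, one_e, mk_e, U, L, D, up, lo, map_one, map_zero, mul_one, one_mul, mul_zero, zero_mul, add_zero, zero_add]; simp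

theorem mp_L (ρ : R →+* F) (a : R) : mp ρ (L a) = lo (ρ a) := by simp only [sl_eq, mul_e, mp_e, one_e, mk_e, U, L, D, up, lo, map_one, map_zero, mul_one, one_mul, mul_zero, zero_mul, add_zero, zero_add]; simp

variable {ρ : R →+* F} {H : Subgroup SL(2, R)}

theorem KS.scal (h : KS ρ H) {g g' : SL(2, R)} (hg : g ∈ H) (hg' : g' ∈ H) (e : mp ρ g = mp ρ g') :
    ∃ s, ρ s = 1 ∧ s * s = 1 ∧ ∀ i j, g.1 i j = s * g'.1 i j := by
  have e1 : mp ρ (g * g'⁻¹) = 1 := by rw [map_mul, map_inv, e, mul_inv_cancel]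
  obtain ⟨a, b, c⟩ := h _ (mul_mem hg (inv_mem hg')) e1
  have d := sl_det (g * g'⁻¹)
  refine ⟨(g * g'⁻¹).1 0 0, (sl_eq.1 e1).1, by rw [a, ← c] at d; simpa using d, fun i j => ?_⟩
  nth_rewrite 1 [← inv_mul_cancel_right g g']
  rw [mul_e]
  fin_cases i <;> simp only [Fin.zero_eta, Fin.mk_one, a, b, ← c] <;> ring

theorem KS.commU (h : KS ρ H) (h2 : IsUnit (2 : R)) {g : SL(2, R)} (hg : g ∈ H) (hu : U 1 ∈ H)
    (e : (mp ρ g).1 1 0 = 0 ∧ (mp ρ g).1 0 0 = (mp ρ g).1 1 1) : g.1 1 0 = 0 := by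
  obtain ⟨s, -, -, q⟩ := h.scal (mul_mem hg hu) (mul_mem hu hg) (by
    rw [map_mul, map_mul, mp_U]
    generalize mp ρ g = x at e
    simp only [sl_eq, mul_e, mp_e, one_e, mk_e, U, L, D, up, lo, map_one, map_zero, mul_one, one_mul, mul_zero, zero_mul, add_zero, zero_add]
    simp [e, add_comm])
  have q1 := q 0 0
  have q2 := q 0 1
  have q3 := q 1 0
  have q4 := q 1 1
  have d := sl_det g
  simp only [sl_eq, mul_e, mp_e, one_e, mk_e, U, L, D, up, lo, map_one, map_zero, mul_one, one_mul, mul_zero, zero_mul, add_zero, zero_add] at q1 q2 q3 q4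
  have : s = 1 := h2.mul_left_cancel (by
    linear_combination (2 - 2 * s) * d - g.1 1 1 * q1 + g.1 1 0 * q2 + g.1 0 1 * q3 - g.1 0 0 * q4)
  linear_combination q4 + g.1 1 1 * this

theorem end_odd (h : KS ρ H) (h2 : IsUnit (2 : R)) (hu : U 1 ∈ H) {c : R} (hl : L c ∈ H)
    (hc : IsUnit c) {t : F} (ht : 2 * t = -1) (hm : lo t ∈ H.map (mp ρ)) :
    ∃ r, L r ∈ H ∧ ρ r = -1 ∧ (1 + r) * r = 0 := by
  obtain ⟨g, hg, e⟩ := hm
  obtain ⟨s, -, -, q⟩ := h.scal (mul_mem hg hl) (mul_mem hl hg) (by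
    rw [map_mul, map_mul, mp_L, e, ← lo_add, ← lo_add, add_comm])
  have q1 := q 0 0
  have q2 := q 0 1
  have q3 := q 1 0
  have q4 := q 1 1
  have d := sl_det g
  simp only [sl_eq, mul_e, mp_e, one_e, mk_e, U, L, D, up, lo, map_one, map_zero, mul_one, one_mul, mul_zero, zero_mul, add_zero, zero_add] at q1 q2 q3 q4 e
  have s1 : s = 1 := h2.mul_left_cancel (by
    linear_combination (2 - 2 * s) * d - g.1 1 1 * q1 + g.1 1 0 * q2 + g.1 0 1 * q3 - g.1 0 0 * q4)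
  subst s1
  have b0 : g.1 0 1 = 0 := hc.mul_left_cancel (by linear_combination q1)
  have ad : g.1 1 1 = g.1 0 0 := hc.mul_left_cancel (by linear_combination q3)
  rw [b0, ad] at d
  have hr : L (2 * g.1 0 0 * g.1 1 0) ∈ H := by
    convert mul_mem hg hg using 1
    simp only [sl_eq, mul_e, mp_e, one_e, mk_e, U, L, D, up, lo, map_one, map_zero, mul_one, one_mul, mul_zero, zero_mul, add_zero, zero_add]
    simp only [b0, ad]
    refine ⟨?_, ?_, ?_, ?_⟩ <;> first | ring1 | linear_combination -d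
  have er : ρ (2 * g.1 0 0 * g.1 1 0) = -1 := by simp [e, map_ofNat, ht]
  refine ⟨_, hr, er, ?_⟩
  generalize 2 * g.1 0 0 * g.1 1 0 = r at hr er
  have hw := mul_mem (mul_mem hu hr) hu
  have := h.commU h2 (mul_mem hw hw) hu (by
    simp only [map_mul, mp_U, mp_L, er]
    simp only [sl_eq, mul_e, mp_e, one_e, mk_e, U, L, D, up, lo, map_one, map_zero, mul_one, one_mul, mul_zero, zero_mul, add_zero, zero_add]
    constructor <;> ring)
  simp only [sl_eq, mul_e, mp_e, one_e, mk_e, U, L, D, up, lo, map_one, map_zero, mul_one, one_mul, mul_zero, zero_mul, add_zero, zero_add] at this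
  exact h2.mul_left_cancel (by linear_combination this)

theorem pow5 (c : R) : ((U 1 * L c) ^ 5).1 =
    ((2 + c) ^ 4 - 3 * (2 + c) ^ 2 + 1) • (U 1 * L c).1 - ((2 + c) ^ 3 - 2 * (2 + c)) • 1 := by
  have : trace (U 1 * L c).1 = 2 + c := by rw [trace_fin_two]; simp only [sl_eq, mul_e, mp_e, one_e, mk_e, U, L, D, up, lo, map_one, map_zero, mul_one, one_mul, mul_zero, zero_mul, add_zero, zero_add]; ring
  rw [sl_val_pow, sl_pow_five, this]

theorem five (h : KS ρ H) (h2 : IsUnit (2 : R)) (h3 : (3 : F) = 0) (hu : U 1 ∈ H) {c : R}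
    (hl : L c ∈ H) (hc : ρ c ^ 2 = -1) : ((2 + c) ^ 4 - 3 * (2 + c) ^ 2 + 1) * c = 0 := by
  have := h.commU h2 (pow_mem (mul_mem hu hl) 5) hu (by
    rw [map_pow, map_mul, mp_U, mp_L, map_one]
    have a1 : (2 + ρ c) ^ 4 - 3 * (2 + ρ c) ^ 2 + 1 = 0 := by
      linear_combination (ρ c ^ 2 + 8 * ρ c + 20) * hc + (-5 + 4 * ρ c) * h3
    erw [pow5, a1]
    simp)
  rw [pow5] at this
  simpa [U, L, mkSL_val] using this

end ring

section field

variable {F : Type*} [Field F]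

theorem D_mem {M : Subgroup SL(2, F)} {k : Subfield F} (h : ∀ a ∈ k, up a ∈ M ∧ lo a ∈ M) {t : F}
    (ht : t ∈ k) (t0 : t ≠ 0) : D t t0 ∈ M := by
  have m1 := (h _ (k.neg_mem k.one_mem)).1
  rw [show D t t0 = up t * lo (-t⁻¹) * up t * (up (-1) * lo 1 * up (-1)) from
    Subtype.ext (H97s.diag_val t0).symm]
  exact mul_mem (mul_mem (mul_mem (h t ht).1 (h _ (k.neg_mem (k.inv_mem ht))).2) (h t ht).1)
    (mul_mem (mul_mem m1 (h 1 k.one_mem).2) m1)

theorem dick [Finite F] {M : Subgroup SL(2, F)} {k : Subfield F} (hu : ∀ a ∈ k, up a ∈ M) {x : F}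
    (hx : x ≠ 0) (hl : lo x ∈ M)
    (hk : (∃ c ∈ k, c ^ 3 ≠ c) ∨ ((2 : F) ≠ 0 ∧ ¬((3 : F) = 0 ∧ x ^ 2 = -1))) :
    ∃ k' : Subfield F, k ≤ k' ∧ x ∈ k' ∧ ∀ a ∈ k', up a ∈ M ∧ lo a ∈ M := by
  rcases lemD M hx (hu 1 k.one_mem) hl with ⟨h2, h, -⟩ | ⟨k', -, h1, h2, h3⟩
  · rcases hk with ⟨c, hc, e⟩ | e
    · exact absurd (by linear_combination (c + 1) * h c (hu c hc)) e
    · exact absurd h2 e.1
  have kk : k ≤ k' := fun a ha => (h1 a).1 (hu a ha)
  have hx' : x ∈ k' := by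
    rcases h3 with h3 | ⟨h3, h4, h5⟩
    · exact h3
    · rcases hk with ⟨c, hc, e⟩ | e
      · exact absurd (h5 c (kk hc)) e
      · exact absurd ⟨h3, h4⟩ e.2
  refine ⟨k', kk, hx', fun a ha => ⟨(h1 a).2 ha, ?_⟩⟩
  have := (h2 _).2 (k'.div_mem ha hx')
  rwa [div_mul_cancel₀ _ hx] at this

theorem nk {k : Subfield F} {K M : Subgroup SL(2, F)} (hM : ∀ a ∈ k, up a ∈ M ∧ lo a ∈ M)
    (hn : ∀ m ∈ M, ∀ g ∈ K, m * g * m⁻¹ ∈ K) (he : ∀ g ∈ K, ∀ i j, g.1 i j ∈ k) {t : F} (ht : t ∈ k)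
    (t3 : t ^ 3 ≠ t) (h0 : ∀ a, up a ∈ K → a = 0) {g : SL(2, F)} (hg : g ∈ K) :
    g.1 0 1 = 0 ∧ g.1 1 0 = 0 ∧ g.1 0 0 = g.1 1 1 := by
  have t0 : t ≠ 0 := fun e => t3 (by simp [e])
  have main : ∀ g ∈ K, g.1 1 0 = 0 := fun g hg => by
    by_contra c0
    let N : Subgroup SL(2, F) :=
      { carrier := {x | ∃ s ∈ k, x * (up s)⁻¹ ∈ K}
        mul_mem' := by
          rintro x y ⟨s, hs, p⟩ ⟨s', hs', q⟩
          refine ⟨s + s', add_mem hs hs', ?_⟩
          convert mul_mem p (hn _ (hM s hs).1 _ q) using 1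
          rw [up_add]; group
        one_mem' := ⟨0, zero_mem _, by simp [up_zero]⟩
        inv_mem' := by
          rintro x ⟨s, hs, p⟩
          refine ⟨-s, neg_mem hs, ?_⟩
          convert hn _ (inv_mem (hM s hs).1) _ (inv_mem p) using 1
          rw [up_neg]; group }
    have hs : -g.1 0 0 / g.1 1 0 ∈ k := div_mem (neg_mem (he g hg _ _)) (he g hg _ _)
    obtain ⟨g', hg', e1, e2⟩ : ∃ g' ∈ K, g'.1 0 0 = 0 ∧ g'.1 1 0 = g.1 1 0 := by
      refine ⟨_, hn _ (hM _ hs).1 g hg, ?_⟩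
      rw [← up_neg]
      simp only [sl_eq, mul_e, mp_e, one_e, mk_e, U, L, D, up, lo, map_one, map_zero, mul_one, one_mul, mul_zero, zero_mul, add_zero, zero_add]
      exact ⟨by field_simp; ring, trivial⟩
    have d := sl_det g'
    obtain ⟨s, hs, p⟩ : D t t0 ∈ N := D_mem (M := N) (fun a ha => ⟨⟨a, ha, by simp⟩, by
      have hb : -a / g.1 1 0 ^ 2 ∈ k := div_mem (neg_mem ha) (pow_mem (he g hg _ _) _)
      refine ⟨_, hb, ?_⟩
      convert mul_mem hg' (hn _ (hM _ hb).1 _ (inv_mem hg')) using 1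
      rw [← mul_assoc, ← mul_assoc, mul_left_inj, eq_mul_inv_iff_mul_eq]
      simp only [sl_eq, mul_e, mp_e, one_e, mk_e, U, L, D, up, lo, map_one, map_zero, mul_one, one_mul, mul_zero, zero_mul, add_zero, zero_add]
      rw [e1, e2] at d ⊢
      refine ⟨trivial, by ring, by ring, ?_⟩
      · field_simp
        linear_combination (-a) * d⟩) ht t0
    have := h0 (t ^ 2 - 1) (by
      convert mul_mem p (hn _ (hM 1 k.one_mem).1 _ (inv_mem p)) using 1
      have : D t t0 * up 1 = up (t ^ 2) * D t t0 := by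
        simp only [sl_eq, mul_e, mp_e, one_e, mk_e, U, L, D, up, lo, map_one, map_zero, mul_one, one_mul, mul_zero, zero_mul, add_zero, zero_add]
        exact ⟨trivial, by field_simp, trivial, trivial⟩
      rw [sub_eq_add_neg, up_add, up_neg, ← mul_inv_eq_iff_eq_mul.2 this, ← up_neg s]
      have c : up (-s) * up 1 = up 1 * up (-s) := by rw [← up_add, ← up_add, add_comm]
      calc _ = D t t0 * (up 1 * up (-s)) * (D t t0 * up (-s))⁻¹ * (up 1)⁻¹ := by group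
        _ = _ := by rw [← c]; group)
    exact t3 (by linear_combination t * this)
  have m1 := hM 1 k.one_mem
  have b0 : g.1 0 1 = 0 := by
    have := main _ (hn _ m1.2 g hg)
    have := main _ (hn _ (inv_mem m1.2) g hg)
    have := main _ (hn _ (hM t ht).2 g hg)
    have := main g hg
    simp only [← lo_neg] at *
    simp only [sl_eq, mul_e, mp_e, one_e, mk_e, U, L, D, up, lo, map_one, map_zero, mul_one, one_mul, mul_zero, zero_mul, add_zero, zero_add] at *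
    grind
  have c0 := main g hg
  refine ⟨b0, c0, ?_⟩
  have := main _ (hn _ m1.2 g hg)
  rw [← lo_neg] at this
  simp only [sl_eq, mul_e, mp_e, one_e, mk_e, U, L, D, up, lo, map_one, map_zero, mul_one, one_mul, mul_zero, zero_mul, add_zero, zero_add] at this
  grind

end field

section quad

variable {F : Type*} [Field F] {θ : F}

/-- the quadratic algebra -/
abbrev Q (θ : F) := QuadraticAlgebra F 0 θ

/-- first character -/
def r1 (θ : F) : Q θ →+* F where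
  toFun z := z.re
  map_one' := rfl
  map_mul' z w := by simp
  map_zero' := rfl
  map_add' z w := rfl

/-- second character -/
def r2 (θ : F) : Q θ →+* F where
  toFun z := z.re + θ * z.im
  map_one' := by simp
  map_mul' z w := by simp; ring
  map_zero' := by simp
  map_add' z w := by simp; ring

/-- no transvections in the kernel -/
def N1 (H : Subgroup SL(2, Q θ)) : Prop := ∀ g ∈ H, mp (r1 θ) g = 1 →
  (g.1 0 0).im + (g.1 1 1).im = 0 → (g.1 0 0).im * (g.1 1 1).im = (g.1 0 1).im * (g.1 1 0).im →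
    g = 1

/-- elements of the kernel over the dual numbers -/
def mkK (a b c : F) : SL(2, Q (0 : F)) := mkSL ⟨1, a⟩ ⟨0, b⟩ ⟨0, c⟩ ⟨1, -a⟩ (by ext <;> simp)

theorem force_eq2 : True := by
  have := @r1.eq_1.{0}
  have := @r2.eq_1.{0}
  have := @N1.eq_1.{0}
  have := @mkK.eq_1.{0}
  trivial

theorem r1_e (z : Q θ) : r1 θ z = z.re := rfl

theorem r2_e (z : Q θ) : r2 θ z = z.re + θ * z.im := rfl

theorem unit_of {z : Q θ} (h1 : r1 θ z ≠ 0) (h2 : r2 θ z ≠ 0) : IsUnit z := by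
  rw [isUnit_iff_norm_isUnit, QuadraticAlgebra.norm_def, isUnit_iff_ne_zero]
  convert mul_ne_zero h1 h2 using 1
  rw [r1_e, r2_e]; ring

theorem ks_zero {H : Subgroup SL(2, Q (0 : F))} (n : N1 H) (hu : up 1 ∈ H.map (mp (r1 0))) {x : F}
    (hx : x ≠ 0) (hl : lo x ∈ H.map (mp (r1 0)))
    (hd : (2 : F) = 0 → ∃ t, ∃ t0 : t ≠ 0, t ^ 2 ≠ 1 ∧ D t t0 ∈ H.map (mp (r1 0))) :
    KS (r1 0) H := by
  have cj : ∀ A ∈ H.map (mp (r1 0)), ∀ a b c a' b' c', mkK a b c ∈ H →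
      A.1 * !![a, b; c, -a] = !![a', b'; c', -a'] * A.1 → mkK (a' - a) (b' - b) (c' - c) ∈ H := by
    rintro _ ⟨g, hg, rfl⟩ a b c a' b' c' h e
    have : g * mkK a b c = mkK a' b' c' * g := by
      have e1 := congrFun₂ e 0 0
      have e2 := congrFun₂ e 0 1
      have e3 := congrFun₂ e 1 0
      have e4 := congrFun₂ e 1 1
      simp [Matrix.mul_apply, Fin.sum_univ_two, r1_e] at e1 e2 e3 e4
      simp only [mkK]
      simp only [sl_eq, mul_e, mp_e, one_e, mk_e, U, L, D, up, lo, map_one, map_zero, mul_one, one_mul, mul_zero, zero_mul, add_zero, zero_add]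
      simp [QuadraticAlgebra.ext_iff]
      grind
    convert mul_mem (mul_mem (mul_mem hg h) (inv_mem hg)) (inv_mem h) using 1
    rw [this, mul_inv_cancel_right, eq_mul_inv_iff_mul_eq]
    simp only [mkK]
    simp only [sl_eq, mul_e, mp_e, one_e, mk_e, U, L, D, up, lo, map_one, map_zero, mul_one, one_mul, mul_zero, zero_mul, add_zero, zero_add]
    simp [QuadraticAlgebra.ext_iff]
    grind
  have nil : ∀ b c, mkK 0 b c ∈ H → b * c = 0 → b = 0 ∧ c = 0 := fun b c h e => by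
    have := n _ h (by simp only [mkK]; simp only [sl_eq, mul_e, mp_e, one_e, mk_e, U, L, D, up, lo, map_one, map_zero, mul_one, one_mul, mul_zero, zero_mul, add_zero, zero_add]; simp [r1_e]) (by simp [mkK, mk_e])
      (by simp [mkK, mk_e, e])
    simp only [mkK] at this
    simp only [sl_eq, mul_e, mp_e, one_e, mk_e, U, L, D, up, lo, map_one, map_zero, mul_one, one_mul, mul_zero, zero_mul, add_zero, zero_add] at this
    simpa [QuadraticAlgebra.ext_iff] using this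
  intro g hg e
  have d := sl_det g
  simp only [sl_eq, mul_e, mp_e, one_e, mk_e, U, L, D, up, lo, map_one, map_zero, mul_one, one_mul, mul_zero, zero_mul, add_zero, zero_add] at e
  simp only [r1_e] at e
  obtain ⟨a, b, c, rfl⟩ : ∃ a b c, g = mkK a b c := by
    refine ⟨(g.1 0 0).im, (g.1 0 1).im, (g.1 1 0).im, ?_⟩
    simp only [mkK]
    simp only [sl_eq, mul_e, mp_e, one_e, mk_e, U, L, D, up, lo, map_one, map_zero, mul_one, one_mul, mul_zero, zero_mul, add_zero, zero_add]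
    simp [QuadraticAlgebra.ext_iff, e] at d ⊢
    linear_combination d
  have u : ∀ a b c : F, (up 1).1 * !![a, b; c, -a] = !![a + c, b - 2 * a - c; c, -(a + c)] * (up 1).1 :=
    fun a b c => by
      ext i j
      fin_cases i <;> fin_cases j <;> simp [up, mkSL_val, Matrix.mul_apply, Fin.sum_univ_two]
      ring
  have l : ∀ a b c : F, (lo x).1 * !![a, b; c, -a] =
      !![a - b * x, b; c + 2 * a * x - b * x ^ 2, -(a - b * x)] * (lo x).1 := fun a b c => by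
    ext i j
    fin_cases i <;> fin_cases j <;> simp [lo, mkSL_val, Matrix.mul_apply, Fin.sum_univ_two] <;> ring
  have u1 := cj _ hu _ _ _ _ _ _ hg (u ..)
  have l1 := cj _ hl _ _ _ _ _ _ hg (l ..)
  suffices b = 0 ∧ c = 0 ∧ a = -a by simp [mkK, mk_e, QuadraticAlgebra.ext_iff, this.1, this.2.1, ← this.2.2]
  by_cases h2 : (2 : F) = 0
  · obtain ⟨t, t0, t2, hD⟩ := hd h2
    have dd : ∀ a b c : F, (D t t0).1 * !![a, b; c, -a] =
        !![a, t ^ 2 * b; t⁻¹ ^ 2 * c, -a] * (D t t0).1 := fun a b c => by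
      ext i j
      fin_cases i <;> fin_cases j <;> simp [D, mkSL_val, Matrix.mul_apply, Fin.sum_univ_two] <;>
        field_simp
    have u2 := cj _ hD _ _ _ _ _ _ u1 (dd ..)
    have l2 := cj _ hD _ _ _ _ _ _ l1 (dd ..)
    rw [sub_self] at u2 l2
    have u3 := nil _ _ u2 (by ring)
    have l3 := nil _ _ l2 (by ring)
    grind
  · have u2 := cj _ hu _ _ _ _ _ _ u1 (u ..)
    have l2 := cj _ hl _ _ _ _ _ _ l1 (l ..)
    rw [show a + c - a + (c - c) - (a + c - a) = 0 by ring] at u2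
    rw [show a - b * x - a - (b - b) * x - (a - b * x - a) = 0 by ring] at l2
    have u3 := nil _ _ u2 (by ring)
    have l3 := nil _ _ l2 (by ring)
    obtain rfl : c = 0 := by grind
    rw [show a + 0 - a = 0 by ring] at u1
    have u4 := nil _ _ u1 (by ring)
    grind

variable {H : Subgroup SL(2, Q θ)}

theorem N1.uni (n : N1 H) (h0 : θ ≠ 0) {g : SL(2, Q θ)} (hg : g ∈ H) (e : mp (r1 θ) g = 1)
    (t : (mp (r2 θ) g).1 0 0 + (mp (r2 θ) g).1 1 1 = 2) : g = 1 := by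
  have d := sl_det g
  have e' := e
  simp only [sl_eq, mul_e, mp_e, one_e, mk_e, U, L, D, up, lo, map_one, map_zero, mul_one, one_mul, mul_zero, zero_mul, add_zero, zero_add] at e' t
  simp [QuadraticAlgebra.ext_iff, r1_e, r2_e] at d e' t
  exact n g hg e (by grind) (by grind)

theorem ks_ne [Finite F] (n : N1 H) (h0 : θ ≠ 0) {k : Subfield F}
    (hu : ∀ c ∈ k, U (algebraMap F _ c) ∈ H) {c0 : Q θ} (hl : L c0 ∈ H) (hx : r2 θ c0 ≠ 0)
    (hk : (∃ c ∈ k, c ^ 3 ≠ c) ∨ ((3 : F) = 0 ∧ r2 θ c0 ^ 3 ≠ r2 θ c0 ∧ r2 θ c0 ^ 2 ≠ -1)) :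
    ∃ H0 ≤ H, KS (r1 θ) H0 ∧ (∀ c ∈ k, U (algebraMap F _ c) ∈ H0) ∧
      ∀ c ∈ k, L (algebraMap F _ c * c0) ∈ H → L (algebraMap F _ c * c0) ∈ H0 := by
  have ra : ∀ c, r2 θ (algebraMap F _ c) = c := fun c => by simp [r2_e]
  obtain ⟨k', kk, hx', hM⟩ := dick (M := H.map (mp (r2 θ))) (k := k)
    (fun a ha => ⟨_, hu a ha, by rw [mp_U, ra]⟩) hx ⟨_, hl, mp_L ..⟩
    (hk.imp_right fun e => ⟨fun e2 => one_ne_zero (α := F) (by linear_combination e.1 - e2),
      fun e2 => e.2.2 e2.2⟩)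
  obtain ⟨t, ht, t3⟩ : ∃ c ∈ k', c ^ 3 ≠ c :=
    hk.elim (fun ⟨c, hc, e⟩ => ⟨c, kk hc, e⟩) fun e => ⟨_, hx', e.2.1⟩
  let S : Subgroup SL(2, F) :=
    { carrier := {g | ∀ i j, g.1 i j ∈ k'}
      mul_mem' := fun {a b} ha hb i j => by
        rw [mul_e]; exact add_mem (mul_mem (ha ..) (hb ..)) (mul_mem (ha ..) (hb ..))
      one_mem' := fun i j => by
        fin_cases i <;> fin_cases j <;> first | exact one_mem k' | exact zero_mem k'
      inv_mem' := fun {a} ha i j => by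
        rw [sl_val_inv]
        fin_cases i <;> fin_cases j <;> first | exact ha _ _ | exact neg_mem (ha _ _) }
  have Su : ∀ a ∈ k', up a ∈ S ∧ lo a ∈ S := fun a ha => by
    constructor <;> intro i j <;> fin_cases i <;> fin_cases j <;>
      first | exact one_mem k' | exact zero_mem k' | exact ha
  refine ⟨H ⊓ S.comap (mp (r2 θ)), inf_le_left, fun g hg e => ?_,
    fun c hc => ⟨hu c hc, ?_⟩, fun c hc h => ⟨h, ?_⟩⟩
  · have := nk (K := (H ⊓ S.comap (mp (r2 θ)) ⊓ (mp (r1 θ)).ker).map (mp (r2 θ)))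
      (M := (H ⊓ S.comap (mp (r2 θ))).map (mp (r2 θ))) (k := k')
      (fun a ha => by
        obtain ⟨⟨u, hu, e1⟩, v, hv, e2⟩ := hM a ha
        exact ⟨⟨u, ⟨hu, show _ ∈ S from e1 ▸ (Su a ha).1⟩, e1⟩,
          v, ⟨hv, show _ ∈ S from e2 ▸ (Su a ha).2⟩, e2⟩)
      (by
        rintro _ ⟨m, hm, rfl⟩ _ ⟨g, ⟨hg, e⟩, rfl⟩
        exact ⟨m * g * m⁻¹, ⟨mul_mem (mul_mem hm hg) (Subgroup.inv_mem _ hm),
          (MonoidHom.normal_ker _).conj_mem _ e _⟩, by simp only [map_mul, map_inv]⟩)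
      (by
        rintro _ ⟨g, ⟨hg, -⟩, rfl⟩
        exact hg.2) ht t3
      (by
        rintro a ⟨g, ⟨hg, e⟩, e'⟩
        rw [n.uni h0 hg.1 e (by rw [e']; simp only [sl_eq, mul_e, mp_e, one_e, mk_e, U, L, D, up, lo, map_one, map_zero, mul_one, one_mul, mul_zero, zero_mul, add_zero, zero_add]; norm_num), map_one] at e'
        exact (sl_eq.1 e').2.1.symm) ⟨g, ⟨hg, e⟩, rfl⟩
    simp only [sl_eq, mul_e, mp_e, one_e, mk_e, U, L, D, up, lo, map_one, map_zero, mul_one, one_mul, mul_zero, zero_mul, add_zero, zero_add] at e this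
    simp [QuadraticAlgebra.ext_iff, r1_e, r2_e] at e this ⊢
    grind
  · change _ ∈ S
    rw [mp_U, ra]
    exact (Su c (kk hc)).1
  · change _ ∈ S
    rw [mp_L, map_mul, ra]
    exact (Su _ (mul_mem (kk hc) hx')).2

theorem end_two (h : KS (r1 θ) H) (h2 : (2 : F) = 0) {k : Subfield F}
    (hu : ∀ c ∈ k, U (algebraMap F _ c) ∈ H) {c0 : Q θ} (hc : IsUnit c0)
    (hl : ∀ c ∈ k, L (algebraMap F _ c * c0) ∈ H) {t : F} (ht : t ∈ k) (t3 : t ^ 3 ≠ t)
    {k' : Subfield F} (kk : k ≤ k') (hM : ∀ a ∈ k', up a ∈ H.map (mp (r1 θ)) ∧ lo a ∈ H.map (mp (r1 θ))) :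
    L (-1) ∈ H := by
  have u1 : U 1 ∈ H := by simpa using hu 1 k.one_mem
  have l1 : L c0 ∈ H := by simpa using hl 1 k.one_mem
  have ra : ∀ c, r1 θ (algebraMap F _ c) = c := fun c => rfl
  have x0 : c0.re ≠ 0 := (hc.map (r1 θ)).ne_zero
  have dg : ∀ t ∈ k, ∀ t0 : t ≠ 0, ∀ g ∈ H, mp (r1 θ) g = D t t0 →
      g.1 0 1 = 0 ∧ g.1 1 0 = 0 ∧ g.1 0 0 = algebraMap F _ (t ^ 2) * g.1 1 1 := by
    intro t ht t0 g hg e
    obtain ⟨s, s1, s2, q⟩ := h.scal (mul_mem hg u1) (mul_mem (hu _ (pow_mem ht 2)) hg) (by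
      rw [map_mul, map_mul, mp_U, mp_U, e, ra]
      simp only [sl_eq, mul_e, mp_e, one_e, mk_e, U, L, D, up, lo, map_one, map_zero, mul_one, one_mul, mul_zero, zero_mul, add_zero, zero_add]
      exact ⟨trivial, by field_simp, trivial, trivial⟩)
    obtain ⟨s', s1', s2', q'⟩ := h.scal (mul_mem hg l1)
      (mul_mem (hl _ (pow_mem (inv_mem ht) 2)) hg) (by
        rw [map_mul, map_mul, mp_L, mp_L, e, map_mul, ra]
        simp only [sl_eq, mul_e, mp_e, one_e, mk_e, U, L, D, up, lo, map_one, map_zero, mul_one, one_mul, mul_zero, zero_mul, add_zero, zero_add]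
        exact ⟨trivial, trivial, by field_simp, trivial⟩)
    have q1 := q 0 0
    have q2 := q 0 1
    have q4 := q 1 1
    have p1 := q' 0 0
    have p3 := q' 1 0
    have d := sl_det g
    simp only [sl_eq, mul_e, mp_e, one_e, mk_e, U, L, D, up, lo, map_one, map_zero, mul_one, one_mul, mul_zero, zero_mul, add_zero, zero_add] at q1 q2 q4 p1 p3 e
    have : s = 1 ∧ s' = 1 := by
      have a := congrArg im q2
      have b := congrArg im p3
      have c := congrArg im d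
      have a' := congrArg im s2
      have b' := congrArg im s2'
      simp only [r1_e] at e s1 s1'
      simp only [algebraMap_eq, im_add, im_mul, re_mul, re_add, im_sub, im_one, e, s1, s1'] at a b c a' b'
      simp only [QuadraticAlgebra.ext_iff, s1, s1', re_one, im_one, true_and]
      clear * - a b c a' b' h2 x0 t0
      by_cases h0 : θ = 0
      · subst h0
        grind
      · exact ⟨by simpa [h0] using (show θ * s.im ^ 2 = 0 by linear_combination a' - s.im * h2),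
          by simpa [h0] using (show θ * s'.im ^ 2 = 0 by linear_combination b' - s'.im * h2)⟩
    obtain ⟨rfl, rfl⟩ := this
    have b0 : g.1 0 1 = 0 := hc.mul_left_cancel (by linear_combination p1)
    exact ⟨b0, by linear_combination q4, by linear_combination q2⟩
  have t0 : t ≠ 0 := fun e => t3 (by simp [e])
  obtain ⟨g, hg, e⟩ := D_mem hM (kk ht) t0
  obtain ⟨w, hw, ew⟩ := mul_mem (mul_mem (hM 1 k'.one_mem).1 (hM 1 k'.one_mem).2) (hM 1 k'.one_mem).1
  have h11 : (1 : F) + 1 = 0 := by linear_combination h2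
  obtain ⟨a1, a2, a3⟩ := dg t ht t0 g hg e
  obtain ⟨b1, b2, b3⟩ := dg _ (inv_mem ht) (inv_ne_zero t0) _ (mul_mem (mul_mem hw hg) (inv_mem hw)) (by
    rw [map_mul, map_mul, map_inv, e, ew, mul_inv_eq_iff_eq_mul]
    simp only [sl_eq, mul_e, mp_e, one_e, mk_e, U, L, D, up, lo, map_one, map_zero, mul_one, one_mul, mul_zero, zero_mul, add_zero, zero_add]
    simp [h11])
  have q := inv_mul_cancel_right (w * g) w
  have d' := sl_det (w * g * w⁻¹)
  generalize w * g * w⁻¹ = g' at b1 b2 b3 q d'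
  have d := sl_det g
  have dw := sl_det w
  simp only [sl_eq, mul_e, mp_e, one_e, mk_e, U, L, D, up, lo, map_one, map_zero, mul_one, one_mul, mul_zero, zero_mul, add_zero, zero_add] at q ew
  simp only [a1, a2, b1, b2, h11] at q d d' ew
  simp only [sl_eq, mul_e, mp_e, one_e, mk_e, U, L, D, up, lo, map_one, map_zero, mul_one, one_mul, mul_zero, zero_mul, add_zero, zero_add] at q d d' ew
  have r2 : (2 : Q θ) = 0 := by ext <;> simp [h2]
  have un : IsUnit (algebraMap F (Q θ) (t ^ 2 - t⁻¹ ^ 2)) :=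
    (isUnit_iff_ne_zero.2 (by grind)).map _
  rw [map_sub] at un
  have w0 : w.1 0 0 = 0 := un.mul_left_cancel (by grind)
  have w1 : w.1 1 1 = 0 := un.mul_left_cancel (by
    have : algebraMap F (Q θ) (t ^ 2) * algebraMap F (Q θ) (t⁻¹ ^ 2) = 1 := by
      rw [← map_mul, ← mul_pow, mul_inv_cancel₀ t0, one_pow, map_one]
    grind)
  have hr : L (-w.1 1 0 ^ 2) ∈ H := by
    convert mul_mem (mul_mem hw u1) (inv_mem hw) using 1
    rw [eq_mul_inv_iff_mul_eq]
    simp only [sl_eq, mul_e, mp_e, one_e, mk_e, U, L, D, up, lo, map_one, map_zero, mul_one, one_mul, mul_zero, zero_mul, add_zero, zero_add]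
    grind
  have := (h _ (pow_mem (mul_mem u1 hr) 3) (by
    rw [map_pow, map_mul, mp_U, mp_L, map_neg, map_pow, ew.2.2.1, pow_three]
    simp only [sl_eq, mul_e, mp_e, one_e, mk_e, U, L, D, up, lo, map_one, map_zero, mul_one, one_mul, mul_zero, zero_mul, add_zero, zero_add]
    grind)).2.1
  rw [pow_three] at this
  simp only [sl_eq, mul_e, mp_e, one_e, mk_e, U, L, D, up, lo, map_one, map_zero, mul_one, one_mul, mul_zero, zero_mul, add_zero, zero_add] at this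
  have g4 : (w.1 1 0 + 1) ^ 4 = 0 := by grind
  rw [show w.1 1 0 ^ 2 = 1 by
    have := ew.2.2.1
    simp [QuadraticAlgebra.ext_iff, r1_e, pow_succ] at g4 this ⊢
    grind] at hr
  exact hr

theorem word (y : F) {v : SL(2, F)} (e : up 1 * lo y * up (-1) * lo y * up 1 * lo (-y) = v)
    (h3 : (3 : F) = 0) : (y = 1 → v * v = 1) ∧
      (y = -1 ∨ y ^ 2 = -1 → (v * v).1 0 0 + (v * v).1 1 1 = 2 ∧ v * v ≠ 1) := by
  have : v.1 0 0 = y ^ 3 - y ^ 2 + 1 ∧ v.1 0 1 = 1 - y ^ 2 ∧ v.1 1 0 = y ^ 3 - 2 * y ^ 2 + y ∧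
      v.1 1 1 = 1 + y - y ^ 2 := by
    subst e
    simp only [sl_eq, mul_e, mp_e, one_e, mk_e, U, L, D, up, lo, map_one, map_zero, mul_one, one_mul, mul_zero, zero_mul, add_zero, zero_add]
    refine ⟨?_, ?_, ?_, ?_⟩ <;> ring
  clear e
  simp only [Ne, sl_eq, mul_e, one_e, this]
  refine ⟨by grind, fun e => ⟨by grind, fun q => one_ne_zero (α := F) ?_⟩⟩
  have q1 := q.2.2.1
  rw [show (y ^ 3 - 2 * y ^ 2 + y) * (y ^ 3 - y ^ 2 + 1) +
    (1 + y - y ^ 2) * (y ^ 3 - 2 * y ^ 2 + y) = 8 by clear q q1 this; grind] at q1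
  linear_combination 3 * h3 - q1

theorem core [Finite F] (n : N1 H) (n2 : ∀ r, L r ∈ H → r1 θ r = -1 → r2 θ r ≠ 0) {k : Subfield F}
    (hu : ∀ c ∈ k, U (algebraMap F _ c) ∈ H) {c0 : Q θ} (x1 : r1 θ c0 ≠ 0) (x2 : r2 θ c0 ≠ 0)
    (hl : ∀ c ∈ k, L (algebraMap F _ c * c0) ∈ H)
    (hk : (∃ c ∈ k, c ^ 3 ≠ c) ∨ ((3 : F) = 0 ∧ ((θ = 0 ∧ r1 θ c0 ^ 2 ≠ -1) ∨
      (r2 θ c0 ^ 3 ≠ r2 θ c0 ∧ r2 θ c0 ^ 2 ≠ -1) ∨
      (θ ≠ 0 ∧ r1 θ c0 ^ 2 = 1 ∧ (r2 θ c0 = -r1 θ c0 ∨ r2 θ c0 ^ 2 = -1))))) : L (-1) ∈ H := by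
  have ra : ∀ c, r1 θ (algebraMap F _ c) = c := fun c => rfl
  have rb : ∀ c, r2 θ (algebraMap F _ c) = c := fun c => by simp [r2_e]
  have u1 : U 1 ∈ H := by simpa using hu 1 k.one_mem
  have l1 : L c0 ∈ H := by simpa using hl 1 k.one_mem
  by_cases ex : (3 : F) = 0 ∧ θ ≠ 0 ∧ r1 θ c0 ^ 2 = 1 ∧ (r2 θ c0 = -r1 θ c0 ∨ r2 θ c0 ^ 2 = -1)
  · exfalso
    obtain ⟨h3, h0, e1, e2⟩ := ex
    have xk : r1 θ c0 ∈ k := by
      rcases sq_eq_one_iff.1 e1 with e | e <;> rw [e]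
      exacts [one_mem k, neg_mem (one_mem k)]
    have um : U (-1) ∈ H := by simpa using hu _ (neg_mem k.one_mem)
    have lp := hl _ xk
    have lm := hl _ (neg_mem xk)
    have hv := mul_mem (mul_mem (mul_mem (mul_mem (mul_mem u1 lp) um) lp) u1) lm
    generalize hx : U 1 * L (algebraMap F (Q θ) (r1 θ c0) * c0) * U (-1) *
      L (algebraMap F (Q θ) (r1 θ c0) * c0) * U 1 * L (algebraMap F (Q θ) (-r1 θ c0) * c0) = v at hv
    have e3 : r1 θ c0 * r2 θ c0 = -1 ∨ (r1 θ c0 * r2 θ c0) ^ 2 = -1 := by grind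
    have w1 := (word (r1 θ c0 * r1 θ c0) (v := mp (r1 θ) v) (by
      simp only [← hx, map_mul, mp_U, mp_L, ra, map_neg, neg_mul, map_one]) h3).1
      (by linear_combination e1)
    have w2 := (word (r1 θ c0 * r2 θ c0) (v := mp (r2 θ) v) (by
      simp only [← hx, map_mul, mp_U, mp_L, rb, map_neg, neg_mul, map_one]) h3).2 e3
    rw [← map_mul] at w1 w2
    exact w2.2 (by rw [n.uni h0 (mul_mem hv hv) w1 w2.1, map_one])
  obtain ⟨H0, le, ks, hu, hl⟩ : ∃ H0 ≤ H, KS (r1 θ) H0 ∧ (∀ c ∈ k, U (algebraMap F _ c) ∈ H0) ∧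
      ∀ c ∈ k, L (algebraMap F _ c * c0) ∈ H0 := by
    by_cases h0 : θ = 0
    · subst h0
      refine ⟨H, le_rfl, ks_zero n ⟨_, u1, by rw [mp_U, map_one]⟩ x1 ⟨_, l1, mp_L (r1 _) c0⟩ fun h2 => ?_,
        hu, hl⟩
      obtain ⟨t, ht, t3⟩ := hk.resolve_right fun e =>
        one_ne_zero (α := F) (by linear_combination e.1 - h2)
      obtain ⟨k', kk, -, hM⟩ := dick (M := H.map (mp (r1 0))) (k := k)
        (fun a ha => ⟨_, hu a ha, by rw [mp_U, ra]⟩) x1 ⟨_, l1, mp_L (r1 _) c0⟩ (.inl ⟨t, ht, t3⟩)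
      exact ⟨t, fun e => t3 (by simp [e]), fun e => t3 (by linear_combination t * e),
        D_mem hM (kk ht) _⟩
    · obtain ⟨H0, le, ks, a, b⟩ := ks_ne n h0 hu l1 x2 (hk.imp_right fun ⟨h3, e⟩ =>
        ⟨h3, (e.resolve_left fun e => h0 e.1).resolve_right fun e => ex ⟨h3, e⟩⟩)
      exact ⟨H0, le, ks, a, fun c hc => b c hc (hl c hc)⟩
  replace u1 : U 1 ∈ H0 := by simpa using hu 1 k.one_mem
  replace l1 : L c0 ∈ H0 := by simpa using hl 1 k.one_mem
  have un : (2 : F) ≠ 0 → IsUnit (2 : Q θ) := fun h2 =>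
    unit_of (by rwa [map_ofNat]) (by rwa [map_ofNat])
  obtain ⟨k', kk, -, hM⟩ := dick (M := H0.map (mp (r1 θ))) (k := k)
    (fun a ha => ⟨_, hu a ha, by rw [mp_U, ra]⟩) x1 ⟨_, l1, mp_L (r1 _) c0⟩ (hk.imp_right fun ⟨h3, e⟩ => by
      have h2 : (2 : F) ≠ 0 := fun e2 => one_ne_zero (α := F) (by linear_combination h3 - e2)
      refine ⟨h2, fun ⟨_, e1⟩ => ?_⟩
      have a := congrArg (r2 θ) (five ks (un h2) h3 u1 l1 e1)
      have b := congrArg (r2 θ) (five ks (un h2) h3 u1 (hl _ (neg_mem k.one_mem))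
        (by rw [map_mul, ra]; linear_combination e1))
      simp only [map_mul, map_add, map_sub, map_pow, map_ofNat, map_one, map_zero, rb] at a b
      grind)
  by_cases h2 : (2 : F) = 0
  · obtain ⟨t, ht, t3⟩ := hk.resolve_right fun e =>
      one_ne_zero (α := F) (by linear_combination e.1 - h2)
    exact le (end_two ks h2 hu (unit_of x1 x2) hl ht t3 kk hM)
  obtain ⟨r, hr, e1, e2⟩ := end_odd ks (un h2) u1 l1 (unit_of x1 x2) (t := -1 / 2) (by field_simp)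
    (hM _ (div_mem (neg_mem k'.one_mem) (by exact_mod_cast natCast_mem k' 2))).2
  have := (unit_of (by rw [e1]; simp) (n2 r (le hr) e1)).mul_left_eq_zero.1 e2
  rw [← eq_neg_of_add_eq_zero_right this]
  exact le hr

end quad

end H98.G4.QR
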