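import Mathlib
import Cfsg.Agent.Lib.Dim3.Uni

/-!
# Abstract calculus of the transvections `1 + a ⊗ φ` of a linear group (any dimension)
-/

set_option autoImplicit false
set_option linter.unusedSectionVars false

namespace H98.G4

open Matrix
open H98.D3 (Exc)

variable {ι : Type} [Fintype ι] [DecidableEq ι] {F : Type*} [Field F]
  {T C : (ι → F) → (ι → F) → Prop} {a b c u v w φ ψ χ ρ : ι → F}

theorem ne_of_dot (h : φ ⬝ᵥ a ≠ 0) : a ≠ 0 := by rintro rfl; simp at h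

theorem ne_of_dot' (h : φ ⬝ᵥ a ≠ 0) : φ ≠ 0 := by rintro rfl; simp at h

theorem exists_dot_one (hw : w ≠ 0) : ∃ χ : ι → F, χ ⬝ᵥ w = 1 := by
  obtain ⟨i, hi⟩ := Function.ne_iff.1 hw
  exact ⟨Pi.single i (w i)⁻¹, by rw [single_dotProduct, inv_mul_cancel₀ hi]⟩

/-- the root group of the flag has more than two elements -/
def Big (T : (ι → F) → (ι → F) → Prop) (a φ : ι → F) : Prop := ∃ s : F, s ≠ 0 ∧ s ≠ 1 ∧ T (s • a) φ

/-- the parameter group of the flag is the subfield `k` -/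
def Par (T : (ι → F) → (ι → F) → Prop) (a φ : ι → F) (k : Subfield F) : Prop := ∀ c : F, T (c • a) φ ↔ c ∈ k

/-- incidence of centres and axes is symmetric -/
def Sym (T : (ι → F) → (ι → F) → Prop) : Prop :=
  ∀ a φ b ψ, T a φ → T b ψ → φ ≠ 0 → b ≠ 0 → φ ⬝ᵥ b = 0 → ψ ⬝ᵥ a = 0

/-- axioms satisfied by the transvections of any subgroup -/
structure TS1 (T : (ι → F) → (ι → F) → Prop) : Prop where
  dot : ∀ {a φ}, T a φ → φ ⬝ᵥ a = 0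
  neg : ∀ {a φ}, T a φ → T (-a) φ
  addL : ∀ {a b φ}, T a φ → T b φ → T (a + b) φ
  addR : ∀ {a φ ψ}, T a φ → T a ψ → T a (φ + ψ)
  smul : ∀ (c : F) (a φ), T (c • a) φ ↔ T a (c • φ)
  conj : ∀ {u ψ v φ}, T u ψ → T v φ → T (v + (ψ ⬝ᵥ v) • u) (φ - (φ ⬝ᵥ u) • ψ)
  zero : ∀ φ, T 0 φ

/-- ... of a finite subgroup (Dickson) -/
structure TS0 (T : (ι → F) → (ι → F) → Prop) : Prop extends TS1 T where
  dick : ∀ {a φ b ψ}, T a φ → T b ψ → φ ⬝ᵥ b ≠ 0 → ψ ⬝ᵥ a ≠ 0 →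
    ((∀ c : F, T (c • a) φ → c ^ 2 = c) ∧ ∀ c : F, T (c • b) ψ → c ^ 2 = c) ∨
    ∃ k : Subfield F, (∃ s ∈ k, s ≠ 0 ∧ s ≠ 1) ∧ Par T a φ k ∧ Par T b ψ k ∧
      ((φ ⬝ᵥ b) * (ψ ⬝ᵥ a) ∈ k ∨ Exc k ((φ ⬝ᵥ b) * (ψ ⬝ᵥ a)))

/-- a family of transvections generating an irreducible group -/
structure Fam (C : (ι → F) → (ι → F) → Prop) : Prop where
  neg : ∀ {a φ}, C a φ → C (-a) φ
  conj : ∀ {u ψ v φ}, C u ψ → C v φ → C (v + (ψ ⬝ᵥ v) • u) (φ - (φ ⬝ᵥ u) • ψ)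
  irr : ∀ W : Submodule F (ι → F), (∀ a φ, C a φ → ∀ w ∈ W, (φ ⬝ᵥ w) • a ∈ W) → W = ⊥ ∨ W = ⊤
  irr' : ∀ W : Submodule F (ι → F), (∀ a φ, C a φ → ∀ w ∈ W, (a ⬝ᵥ w) • φ ∈ W) → W = ⊥ ∨ W = ⊤
  ex : ∃ a φ, C a φ ∧ a ≠ 0 ∧ φ ≠ 0
  neg' : ∀ {a φ}, C a φ → C a (-φ)
  dot : ∀ {a φ}, C a φ → φ ⬝ᵥ a = 0

theorem Par.unique {k k' : Subfield F} (h : Par T a φ k) (h' : Par T a φ k') : k = k' := by
  ext c; rw [← h c, h' c]

namespace TS1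

theorem zero' (h : TS1 T) (a : ι → F) : T a 0 := by
  simpa using (h.smul 0 a 0).1 (by simpa using h.zero 0)

theorem neg' (h : TS1 T) (h1 : T a φ) : T a (-φ) := by
  have := h.neg h1
  rwa [← neg_one_smul F a, h.smul, neg_one_smul] at this

theorem subL (h : TS1 T) (h1 : T a φ) (h2 : T b φ) : T (a - b) φ := by
  rw [sub_eq_add_neg]; exact h.addL h1 (h.neg h2)

theorem subR (h : TS1 T) (h1 : T a φ) (h2 : T a ψ) : T a (φ - ψ) := by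
  rw [sub_eq_add_neg]; exact h.addR h1 (h.neg' h2)

theorem comm (h : TS1 T) (h1 : T v φ) (h2 : T w ψ) (h0 : ψ ⬝ᵥ v = 0) : T ((φ ⬝ᵥ w) • v) ψ := by
  have := h.conj h1 h2
  rw [h0, zero_smul, sub_zero] at this
  simpa using h.subL this h2

theorem scale (h : TS1 T) (h1 : T a φ) {s : F} (hs : s ≠ 0) : T (s • a) (s⁻¹ • φ) := by
  rwa [h.smul, smul_inv_smul₀ hs]

theorem par_dual (h : TS1 T) {k : Subfield F} : Par (fun a φ => T φ a) φ a k ↔ Par T a φ k :=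
  forall_congr' fun c => by rw [h.smul]

theorem big_dual (h : TS1 T) : Big (fun a φ => T φ a) φ a ↔ Big T a φ :=
  exists_congr fun c => by rw [h.smul]

theorem dual (h : TS1 T) : TS1 fun a φ => T φ a where
  dot h1 := by rw [dotProduct_comm]; exact h.dot h1
  neg := h.neg'
  addL := h.addR
  addR := h.addL
  smul c a φ := (h.smul c φ a).symm
  conj {u ψ v φ} h1 h2 := by
    have := h.conj (h.neg h1) h2
    rwa [smul_neg, ← sub_eq_add_neg, dotProduct_neg, neg_smul, sub_neg_eq_add, dotProduct_comm u,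
      dotProduct_comm v] at this
  zero := h.zero'

theorem conj_smul (h : TS1 T) (h1 : T u ψ) (s : F) : T (s • (v + (ψ ⬝ᵥ v) • u)) (φ - (φ ⬝ᵥ u) • ψ) ↔ T (s • v) φ := by
  refine ⟨fun h2 => ?_, fun h2 => ?_⟩
  · have := h.conj (h.neg h1) h2
    have d := h.dot h1
    convert this using 1
    · simp [d, smul_smul]
    · simp [d]
  · have := h.conj h1 h2
    rwa [dotProduct_smul, smul_eq_mul, mul_smul, ← smul_add] at this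

theorem big_conj (h : TS1 T) (h1 : T u ψ) (h2 : Big T v φ) :
    Big T (v + (ψ ⬝ᵥ v) • u) (φ - (φ ⬝ᵥ u) • ψ) :=
  h2.imp fun s k => ⟨k.1, k.2.1, (h.conj_smul h1 s).2 k.2.2⟩

theorem par_conj (h : TS1 T) (h1 : T u ψ) {k : Subfield F} (h2 : Par T v φ k) :
    Par T (v + (ψ ⬝ᵥ v) • u) (φ - (φ ⬝ᵥ u) • ψ) k := fun s => (h.conj_smul h1 s).trans (h2 s)

theorem par_smul (h : TS1 T) {k : Subfield F} (h1 : Par T a φ k) {x y : F} (hx : x ≠ 0) (hy : y ≠ 0)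
    (h2 : T (x • a) (y • φ)) : Par T (x • a) (y • φ) k := by
  have e : ∀ c : F, T (c • x • a) (y • φ) ↔ y * c * x ∈ k := fun c => by
    rw [← h.smul, smul_smul, smul_smul, h1]
  have h3 : y * x ∈ k := by simpa using (e 1).1 (by simpa using h2)
  intro c
  rw [e, mul_right_comm]
  refine ⟨fun h4 => ?_, mul_mem h3⟩
  have := div_mem h4 h3
  rwa [mul_div_cancel_left₀ _ (mul_ne_zero hy hx)] at this

theorem sym_dual (hs : Sym T) : Sym fun a φ => T φ a := fun a φ b ψ t1 t2 h1 h2 e => by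
  rw [dotProduct_comm] at e ⊢
  exact hs _ _ _ _ t2 t1 h2 h1 e

end TS1

theorem TS0.dual (h : TS0 T) : TS0 fun a φ => T φ a where
  toTS1 := h.toTS1.dual
  dick {a φ b ψ} h1 h2 h3 h4 := by
    rw [dotProduct_comm] at h3 h4
    rcases h.dick h1 h2 h4 h3 with h5 | ⟨k, h5, h6, h7, h8⟩
    · exact Or.inl ⟨fun c hc => h5.1 c ((h.smul _ _ _).2 hc), fun c hc => h5.2 c ((h.smul _ _ _).2 hc)⟩
    · refine Or.inr ⟨k, h5, h.par_dual.2 h6, h.par_dual.2 h7, ?_⟩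
      rwa [mul_comm, dotProduct_comm φ, dotProduct_comm ψ]

namespace Fam

theorem dual (h : Fam C) : Fam fun a φ => C φ a where
  neg := h.neg'
  neg' := h.neg
  conj {u ψ v φ} h1 h2 := by
    have := h.conj (h.neg h1) h2
    rwa [smul_neg, ← sub_eq_add_neg, dotProduct_neg, neg_smul, sub_neg_eq_add, dotProduct_comm u,
      dotProduct_comm v] at this
  irr W hW := h.irr' W fun a φ => hW φ a
  irr' W hW := h.irr W fun a φ => hW φ a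
  ex := by obtain ⟨a, φ, h1, h2, h3⟩ := h.ex; exact ⟨φ, a, h1, h3, h2⟩
  dot h1 := by rw [dotProduct_comm]; exact h.dot h1

/-- the kernel of a linear form -/
def kr (χ : ι → F) : Submodule F (ι → F) where
  carrier := {v | χ ⬝ᵥ v = 0}
  add_mem' {u v} (hu : _ = _) (hv : _ = _) := show _ = _ by rw [dotProduct_add, hu, hv, add_zero]
  zero_mem' := dotProduct_zero _
  smul_mem' c v (hv : _ = _) := show _ = _ by rw [dotProduct_smul, hv, smul_zero]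

theorem mem_kr : v ∈ kr χ ↔ χ ⬝ᵥ v = 0 := Iff.rfl

theorem kr_ne (h : χ ≠ 0) : kr χ ≠ ⊤ := fun e => by
  obtain ⟨v, hv⟩ := exists_dot_one h
  have := mem_kr.1 (e.ge (Submodule.mem_top (x := v)))
  rw [dotProduct_comm, hv] at this
  exact one_ne_zero this

/-- an invariant subfamily whose centres lie in a hyperplane is empty -/
theorem span (h : Fam C) {D : (ι → F) → (ι → F) → Prop}
    (hD : ∀ a φ b ψ, C a φ → φ ≠ 0 → D b ψ → (∃ ψ', D (b + (φ ⬝ᵥ b) • a) ψ') ∨ ∃ φ', D a φ')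
    (hχ : χ ≠ 0) (h0 : ∀ b ψ, D b ψ → χ ⬝ᵥ b = 0) (d : D b ψ) : b = 0 := by
  rcases h.irr (Submodule.span F {b | ∃ ψ, D b ψ}) (fun a φ t w hw => by
    induction hw using Submodule.span_induction with
    | mem x hx =>
      obtain ⟨ψ, hx⟩ := hx
      by_cases e : φ = 0
      · simp [e]
      rcases hD a φ x ψ t e hx with k | k
      · have := sub_mem (Submodule.subset_span (R := F) (s := {b | ∃ ψ, D b ψ}) k)
          (Submodule.subset_span (R := F) (s := {b | ∃ ψ, D b ψ}) ⟨ψ, hx⟩)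
        rwa [add_sub_cancel_left] at this
      · exact Submodule.smul_mem _ _ (Submodule.subset_span k)
    | zero => simp
    | add x y _ _ hx hy => rw [dotProduct_add, add_smul]; exact add_mem hx hy
    | smul c x _ hx => rw [dotProduct_smul, smul_eq_mul, mul_smul]; exact Submodule.smul_mem _ _ hx) with e | e
  · exact (Submodule.mem_bot F).1 (e.le (Submodule.subset_span ⟨ψ, d⟩))
  · exact absurd (top_le_iff.1 (e.ge.trans (Submodule.span_le.2 fun b ⟨ψ, hb⟩ => h0 b ψ hb))) (kr_ne hχ)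

theorem spanC (h : Fam C) (hχ : χ ≠ 0) : ∃ a φ, C a φ ∧ φ ≠ 0 ∧ χ ⬝ᵥ a ≠ 0 := by
  by_contra hc
  push Not at hc
  obtain ⟨a, φ, t, ha, hφ⟩ := h.ex
  rcases h.irr (kr χ) (fun a φ t w _ => by
    by_cases e : φ = 0
    · simp [e]
    · rw [mem_kr, dotProduct_smul, hc a φ t e, smul_zero]) with e | e
  · exact ha ((Submodule.mem_bot F).1 (e.le (hc a φ t hφ)))
  · exact kr_ne hχ e

theorem spanA (h : Fam C) (hb : b ≠ 0) : ∃ a φ, C a φ ∧ a ≠ 0 ∧ φ ⬝ᵥ b ≠ 0 := by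
  obtain ⟨φ, a, h1, h2, h3⟩ := h.dual.spanC hb
  exact ⟨a, φ, h1, h2, by rwa [dotProduct_comm]⟩

/-- a member with centre off a given hyperplane and axis missing a given point -/
theorem exists_opp (h : Fam C) (hb : b ≠ 0) (hψ : ψ ≠ 0) : ∃ a φ, C a φ ∧ φ ⬝ᵥ b ≠ 0 ∧ ψ ⬝ᵥ a ≠ 0 := by
  by_contra hc
  push Not at hc
  obtain ⟨a, φ, t, ha, h1⟩ := h.spanA hb
  refine ha (h.span (D := fun a φ => C a φ ∧ φ ⬝ᵥ b ≠ 0) (fun u ρ v χ t1 _ ⟨t2, h2⟩ => ?_) hψ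
    (fun a φ t => hc a φ t.1 t.2) ⟨t, h1⟩)
  by_cases e : ρ ⬝ᵥ b = 0
  · exact .inl ⟨_, h.conj t1 t2, by simpa [e] using h2⟩
  · exact .inr ⟨_, t1, e⟩

theorem conj_ne (h : Fam C) (t : C u ψ) (hφ : φ ≠ 0) : φ - (φ ⬝ᵥ u) • ψ ≠ 0 := fun e => by
  have e1 := sub_eq_zero.1 e
  have := congrArg (· ⬝ᵥ u) e1
  simp only [smul_dotProduct, h.dot t, smul_zero] at this
  exact hφ (by rw [e1, this, zero_smul])

/-- a member with centre off two given hyperplanes -/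
theorem exists_out (h : Fam C) (hχ : χ ≠ 0) (hψ : ψ ≠ 0) : ∃ a φ, C a φ ∧ φ ≠ 0 ∧ χ ⬝ᵥ a ≠ 0 ∧ ψ ⬝ᵥ a ≠ 0 := by
  by_contra hc
  push Not at hc
  obtain ⟨a, φ, t, hφ, h1⟩ := h.spanC hχ
  refine ne_of_dot h1 (h.span (D := fun a φ => C a φ ∧ φ ≠ 0 ∧ χ ⬝ᵥ a ≠ 0) (fun u ρ v η t1 h0 ⟨t2, h2, h3⟩ => ?_) hψ
    (fun a φ t => hc a φ t.1 t.2.1 t.2.2) ⟨t, hφ, h1⟩)
  by_cases e : χ ⬝ᵥ u = 0
  · exact .inl ⟨_, h.conj t1 t2, h.conj_ne t1 h2, by simpa [e] using h3⟩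
  · exact .inr ⟨_, t1, h0, e⟩

/-- a member whose axis misses two given points -/
theorem exists_out' (h : Fam C) (hb : b ≠ 0) (hc : c ≠ 0) : ∃ a φ, C a φ ∧ a ≠ 0 ∧ φ ⬝ᵥ b ≠ 0 ∧ φ ⬝ᵥ c ≠ 0 := by
  obtain ⟨φ, a, h1, h2, h3, h4⟩ := h.dual.exists_out hb hc
  exact ⟨a, φ, h1, h2, by rwa [dotProduct_comm], by rwa [dotProduct_comm]⟩

theorem conj_ne' (h : Fam C) (t : C u ψ) (hv : v ≠ 0) : v + (ψ ⬝ᵥ v) • u ≠ 0 := by
  have := h.dual.conj_ne (u := ψ) (ψ := -u) (h.neg t) hv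
  rwa [smul_neg, sub_neg_eq_add, dotProduct_comm] at this

/-- the graph of opposite flags is connected -/
theorem all_of_opp (h : Fam C) {D : (ι → F) → (ι → F) → Prop}
    (hc : ∀ u ρ v χ, C u ρ → D v χ → D (v + (ρ ⬝ᵥ v) • u) (χ - (χ ⬝ᵥ u) • ρ))
    (ho : ∀ u ρ v χ, C u ρ → D v χ → χ ⬝ᵥ u ≠ 0 → ρ ⬝ᵥ v ≠ 0 → D u ρ) (d : D a φ) (ha : a ≠ 0) (hφ : φ ≠ 0)
    (t : C b ψ) (hb : b ≠ 0) (hψ : ψ ≠ 0) : D b ψ := by
  by_contra hn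
  obtain ⟨v, χ, d1, h1, h2⟩ : ∃ v χ, D v χ ∧ v ≠ 0 ∧ χ ⬝ᵥ b ≠ 0 := by
    by_contra k
    push Not at k
    refine hφ (h.dual.span (D := fun χ v => D v χ ∧ v ≠ 0) (fun ρ u χ v t1 _ d1 => .inl ⟨_, ?_, h.conj_ne' (h.neg t1) d1.2⟩)
      hb (fun χ v d1 => by rw [dotProduct_comm]; exact k v χ d1.1 d1.2) ⟨d, ha⟩)
    have := hc _ _ _ _ (h.neg t1) d1.1
    rwa [dotProduct_neg, neg_smul, sub_neg_eq_add, dotProduct_comm χ] at this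
  refine h1 (h.span (D := fun v χ => D v χ ∧ χ ⬝ᵥ b ≠ 0) (fun u ρ v χ t1 _ d1 => ?_) hψ
    (fun v χ d1 => by_contra fun e => hn (ho _ _ _ _ t d1.1 d1.2 e)) ⟨d1, h2⟩)
  by_cases e : (χ - (χ ⬝ᵥ u) • ρ) ⬝ᵥ b = 0
  swap
  · exact .inl ⟨_, hc _ _ _ _ t1 d1.1, e⟩
  by_cases e1 : ρ ⬝ᵥ v = 0
  · exact .inl ⟨χ, by simpa [e1] using d1.1, d1.2⟩
  exact .inr ⟨ρ, ho _ _ _ _ t1 d1.1 (fun e' => d1.2 (by simpa [e'] using e)) e1, fun e' => d1.2 (by simpa [e'] using e)⟩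

end Fam

/-- all non-trivial root groups are big -/
def AllBig (T : (ι → F) → (ι → F) → Prop) : Prop := ∀ a φ, T a φ → a ≠ 0 → φ ≠ 0 → Big T a φ

theorem TS0.allBig (h : TS0 T) (hF : Fam T) (t : T a φ) (ha : a ≠ 0) (hφ : φ ≠ 0) (hb : Big T a φ) : AllBig T :=
  fun b ψ t' h1 h2 => (hF.all_of_opp (D := fun a φ => T a φ ∧ Big T a φ)
    (fun _ _ _ _ t1 d => ⟨h.conj t1 d.1, h.big_conj t1 d.2⟩) (fun u ρ v χ t1 ⟨t2, s, h5, h6, h7⟩ h3 h4 => ⟨t1, by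
      rcases h.dick t1 t2 h4 h3 with h8 | ⟨k, ⟨s, hs, h8, h9⟩, h10, -⟩
      · exact absurd (mul_left_cancel₀ h5 (by rw [mul_one, ← pow_two, h8.2 s h7])) h6
      · exact ⟨s, h8, h9, (h10 s).2 hs⟩⟩) ⟨t, hb⟩ ha hφ t' h1 h2).2

/-- the root groups are parametrised by one subfield -/
structure TK (T : (ι → F) → (ι → F) → Prop) (K : Subfield F) : Prop extends TS1 T where
  fam : Fam T
  par : ∀ {a φ}, T a φ → a ≠ 0 → φ ≠ 0 → Par T a φ K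
  val : ∀ {a φ b ψ}, T a φ → T b ψ → (φ ⬝ᵥ b) * (ψ ⬝ᵥ a) ∈ K ∨ Exc K ((φ ⬝ᵥ b) * (ψ ⬝ᵥ a))

theorem TK.dual {K : Subfield F} (h : TK T K) : TK (fun a φ => T φ a) K where
  toTS1 := h.toTS1.dual
  fam := h.fam.dual
  par t h1 h2 := h.par_dual.2 (h.par t h2 h1)
  val {a φ b ψ} t1 t2 := by
    rw [mul_comm, dotProduct_comm φ, dotProduct_comm ψ]
    exact h.val t1 t2

theorem TS0.tk (h : TS0 T) (hF : Fam T) (hb : AllBig T) : ∃ K, TK T K ∧ ∃ s ∈ K, s ≠ 0 ∧ s ≠ 1 := by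
  have dk : ∀ {a φ b ψ}, T a φ → T b ψ → φ ⬝ᵥ b ≠ 0 → ψ ⬝ᵥ a ≠ 0 → ∃ k : Subfield F, Par T a φ k ∧ Par T b ψ k ∧
      ((φ ⬝ᵥ b) * (ψ ⬝ᵥ a) ∈ k ∨ Exc k ((φ ⬝ᵥ b) * (ψ ⬝ᵥ a))) := fun t1 t2 h3 h4 => by
    obtain ⟨s, h5, h6, h7⟩ := hb _ _ t1 (ne_of_dot h4) (ne_of_dot' h3)
    rcases h.dick t1 t2 h3 h4 with h8 | ⟨k, -, h10⟩
    · exact absurd (mul_left_cancel₀ h5 (by rw [mul_one, ← pow_two, h8.1 s h7])) h6
    · exact ⟨k, h10⟩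
  obtain ⟨a, φ, t, ha, hφ⟩ := hF.ex
  obtain ⟨b, ψ, t', h1, h2⟩ := hF.exists_opp ha hφ
  obtain ⟨K, p, -⟩ := dk t t' h2 h1
  have par : ∀ {a φ}, T a φ → a ≠ 0 → φ ≠ 0 → Par T a φ K := fun t1 h3 h4 =>
    (hF.all_of_opp (D := fun a φ => T a φ ∧ Par T a φ K) (fun _ _ _ _ t1 d => ⟨h.conj t1 d.1, h.par_conj t1 d.2⟩)
      (fun u ρ v χ t1 d h3 h4 => ⟨t1, by
        obtain ⟨k, p1, p2, -⟩ := dk t1 d.1 h4 h3
        rwa [p2.unique d.2] at p1⟩) ⟨t, p⟩ ha hφ t1 h3 h4).2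
  obtain ⟨s, h5, h6, h7⟩ := hb _ _ t ha hφ
  refine ⟨K, ⟨h.toTS1, hF, par, fun {a φ b ψ} t1 t2 => ?_⟩, s, (p s).1 h7, h5, h6⟩
  by_cases e1 : φ ⬝ᵥ b = 0
  · simp [e1]
  by_cases e2 : ψ ⬝ᵥ a = 0
  · simp [e2]
  obtain ⟨k, p1, -, p3⟩ := dk t1 t2 e1 e2
  rwa [p1.unique (par t1 (ne_of_dot e2) (ne_of_dot' e1))] at p3

end H98.G4
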